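import Cfsg.Agent.H11.QdRed
import Cfsg.Agent.H33.SecControl
/-!
The Alperin–Lyons argument with a Sylow subgroup in a unique maximal subgroup.
-/
set_option autoImplicit false
set_option linter.all false

namespace Cfsg.Agent.QdInv

open Cfsg Cfsg.Agent.H33

section Part

variable {G : Type*} [Group G] [Finite G] {p : ℕ} [hp : Fact p.Prime]

theorem Quad_congr {G : Type*} [Group G] {P : Subgroup G} {a a₁ : G} (ha : a ∈ Subgroup.normalizer (P : Set G))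
    (h : ∀ v ∈ P, a₁ * v * a₁⁻¹ = a * v * a⁻¹) (hq : H11.Quad a P) : H11.Quad a₁ P := by
  intro v hv
  rw [h v hv]
  have h1 := hq v hv
  have h2 : a * v * a⁻¹ * v⁻¹ ∈ P :=
    P.mul_mem ((Subgroup.mem_normalizer_iff.1 ha v).1 hv) (P.inv_mem hv)
  have h3 := h _ h2
  have h4 : a * (a * v * a⁻¹ * v⁻¹) * a⁻¹ = a * v * a⁻¹ * v⁻¹ := by
    rw [h1.eq]; group
  rw [h4] at h3
  show a₁ * (a * v * a⁻¹ * v⁻¹) = a * v * a⁻¹ * v⁻¹ * a₁
  calc a₁ * (a * v * a⁻¹ * v⁻¹) = (a₁ * (a * v * a⁻¹ * v⁻¹) * a₁⁻¹) * a₁ := by group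
    _ = _ := by rw [h3]

theorem exists_p_part {P : Subgroup G} (hP : IsPGroup p P) {a : G}
    (ha : a ∈ Subgroup.normalizer (P : Set G)) (hq : H11.Quad a P) :
    ∃ a₁ : G, (∃ k, a₁ ^ p ^ k = 1) ∧ a₁⁻¹ * a ∈ Subgroup.centralizer (P : Set G) ∧ H11.Quad a₁ P := by
  obtain ⟨i, m, hm, hom⟩ := Nat.exists_eq_pow_mul_and_not_dvd (orderOf_pos a).ne' p hp.out.ne_one
  obtain ⟨j, hj⟩ := hP.exists_card_eq
  have hcop : Nat.Coprime m (p ^ j) := by
    apply Nat.Coprime.pow_right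
    exact ((Nat.Prime.coprime_iff_not_dvd hp.out).2 hm).symm
  obtain ⟨u, hu1, hu2⟩ := Nat.chineseRemainder hcop 0 1
  obtain ⟨v, hv⟩ : ∃ v, v = u + m * p ^ j := ⟨_, rfl⟩
  have hmv : m ∣ v := by
    rw [hv]; exact dvd_add ((Nat.modEq_zero_iff_dvd).1 hu1) (Dvd.intro _ rfl)
  have hv1 : 1 ≤ v := by
    rw [hv]
    have : 0 < m * p ^ j := Nat.mul_pos (Nat.pos_of_ne_zero (fun h => hm (h ▸ dvd_zero p)))
      (pow_pos hp.out.pos j)
    omega
  have hv2 : p ^ j ∣ v - 1 := by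
    rw [← Nat.modEq_iff_dvd' hv1]
    have h1 : v ≡ 1 [MOD p ^ j] := by
      rw [hv]
      have := hu2.add_right (m * p ^ j)
      refine this.trans ?_
      exact (Nat.modEq_zero_iff_dvd.2 (Dvd.intro_left _ rfl)).add_left 1
    exact h1.symm
  have hc : a ^ p ^ j ∈ Subgroup.centralizer (P : Set G) := by
    rw [← hj]; exact hq.pow_mem ha
  have hc2 : a ^ (v - 1) ∈ Subgroup.centralizer (P : Set G) := by
    obtain ⟨t, ht⟩ := hv2
    rw [ht, pow_mul]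
    exact pow_mem hc t
  have hav : a ^ v = a * a ^ (v - 1) := by
    rw [← pow_succ']; congr 1; omega
  refine ⟨a ^ v, ⟨i, ?_⟩, ?_, ?_⟩
  · rw [← pow_mul, ← orderOf_dvd_iff_pow_eq_one, hom, mul_comm]
    exact Nat.mul_dvd_mul hmv dvd_rfl
  · have e : (a ^ v)⁻¹ * a = (a ^ (v - 1))⁻¹ := by rw [hav]; group
    rw [e]
    exact inv_mem hc2
  · refine Quad_congr ha ?_ hq
    intro x hx
    have h1 := Subgroup.mem_centralizer_iff.1 hc2 x hx
    rw [hav]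
    calc a * a ^ (v - 1) * x * (a * a ^ (v - 1))⁻¹ = a * (a ^ (v - 1) * x) * (a ^ (v - 1))⁻¹ * a⁻¹ := by group
      _ = a * (x * a ^ (v - 1)) * (a ^ (v - 1))⁻¹ * a⁻¹ := by rw [h1]
      _ = _ := by group

end Part

section AL

variable {G : Type*} [Group G] [Finite G] {p : ℕ} [hp : Fact p.Prime]

/-- `K` is the unique maximal subgroup containing `T`. -/
def UM (T K : Subgroup G) : Prop := T ≤ K ∧ K ≠ ⊤ ∧ ∀ K', T ≤ K' → K' ≠ ⊤ → K' ≤ K

theorem UM.cj {T K : Subgroup G} (h : UM T K) (x : G) : UM (cj x T) (cj x K) := by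
  refine ⟨cj_mono h.1, ?_, ?_⟩
  · intro h1
    apply h.2.1
    rw [← cj_inj (g := x), h1, cj_top]
  · intro K' h1 h2
    have h3 : T ≤ H33.cj x⁻¹ K' := by rw [← cj_le_iff_le_cj]; exact h1
    have h4 : H33.cj x⁻¹ K' ≠ ⊤ := by
      intro h5
      apply h2
      rw [← cj_inj (g := x⁻¹), h5, cj_top]
    have h5 := h.2.2 _ h3 h4
    have h6 := cj_mono (g := x) h5
    rwa [cj_cj_inv] at h6

theorem UM.unique {T K K' : Subgroup G} (h : UM T K) (h' : UM T K') : K = K' :=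
  le_antisymm (h'.2.2 _ h.1 h.2.1) (h.2.2 _ h'.1 h'.2.1)

theorem exists_norm_elem {T D : Subgroup G} (hT : IsPGroup p T) (Λ : Set G)
    (hΛ : ∀ x g : G, x ∈ Λ → g * x * g⁻¹ ∈ Λ) (hDT : D ≤ T)
    (hD : Subgroup.closure (Λ ∩ D) = D) (hne : Subgroup.closure (Λ ∩ T) ≠ D) :
    ∃ a ∈ Λ, a ∈ T ∧ a ∉ D ∧ a ∈ Subgroup.normalizer (D : Set G) := by
  by_contra hcon
  push Not at hcon
  obtain ⟨D₁, hD₁⟩ : ∃ D₁ : Subgroup G, D₁ = T ⊓ Subgroup.normalizer (D : Set G) := ⟨_, rfl⟩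
  have h1 : Λ ∩ D₁ = Λ ∩ D := by
    ext x
    constructor
    · rintro ⟨hx1, hx2⟩
      rw [hD₁] at hx2
      refine ⟨hx1, ?_⟩
      by_contra hx3
      exact hcon x hx1 hx2.1 hx3 hx2.2
    · rintro ⟨hx1, hx2⟩
      refine ⟨hx1, ?_⟩
      rw [hD₁]
      exact ⟨hDT hx2, Subgroup.le_normalizer hx2⟩
  have h2 : T ⊓ Subgroup.normalizer (D₁ : Set G) ≤ D₁ := by
    rintro n ⟨hn1, hn2⟩
    rw [hD₁]
    refine ⟨hn1, ?_⟩
    apply mem_norm_of_le
    rw [cj_le_iff]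
    intro x hx
    rw [← hD, ← h1] at hx ⊢
    induction hx using Subgroup.closure_induction with
    | mem x hx =>
      apply Subgroup.subset_closure
      exact ⟨hΛ x n hx.1, (Subgroup.mem_normalizer_iff.1 hn2 x).1 hx.2⟩
    | one => simp [one_mem]
    | mul x y _ _ hx hy =>
      have := mul_mem hx hy
      have e : n * x * n⁻¹ * (n * y * n⁻¹) = n * (x * y) * n⁻¹ := by group
      rwa [e] at this
    | inv x _ hx =>
      have := inv_mem hx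
      have e : (n * x * n⁻¹)⁻¹ = n * x⁻¹ * n⁻¹ := by group
      rwa [e] at this
  have h3 : D₁ ≤ T := by rw [hD₁]; exact inf_le_left
  rcases h3.lt_or_eq with h4 | h4
  · exact absurd h2 (lt_inf_normalizer hT h4).not_ge
  · apply hne
    rw [← h4, h1, hD]

theorem closure_inter_norm (Λ : Set G) (hΛ : ∀ x g : G, x ∈ Λ → g * x * g⁻¹ ∈ Λ) (T : Subgroup G) :
    Subgroup.normalizer (T : Set G) ≤ Subgroup.normalizer (Subgroup.closure (Λ ∩ T) : Set G) := by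
  intro n hn
  apply mem_norm_of_le
  rw [cj_le_iff]
  intro x hx
  induction hx using Subgroup.closure_induction with
  | mem x hx =>
    apply Subgroup.subset_closure
    exact ⟨hΛ x n hx.1, (Subgroup.mem_normalizer_iff.1 hn x).1 hx.2⟩
  | one => simp [one_mem]
  | mul x y _ _ hx hy =>
    have := mul_mem hx hy
    have e : n * x * n⁻¹ * (n * y * n⁻¹) = n * (x * y) * n⁻¹ := by group
    rwa [e] at this
  | inv x _ hx =>
    have := inv_mem hx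
    have e : (n * x * n⁻¹)⁻¹ = n * x⁻¹ * n⁻¹ := by group
    rwa [e] at this

/-- The main argument. -/
theorem exists_pair (S : Sylow p G) (M : Subgroup G) (hM : UM (S : Subgroup G) M) (P : Subgroup G)
    [hPn : P.Normal] (hP : IsPGroup p P) {a₀ : G} (ha₀ : H11.Quad a₀ P)
    (hns : (QuotientGroup.mk a₀ : G ⧸ Subgroup.centralizer (P : Set G)) ∉
      pCore p (G ⧸ Subgroup.centralizer (P : Set G))) :
    ∃ a b : G, H11.Quad a P ∧ H11.Quad b P ∧ (∃ k, a ^ p ^ k = 1) ∧ (∃ k, b ^ p ^ k = 1) ∧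
      (∃ g ∈ Subgroup.closure {a, b}, (orderOf g).Coprime p ∧ g ∉ Subgroup.centralizer (P : Set G)) ∧
      ∃ x : G, ∀ T' : Subgroup G, IsPGroup p T' → a ∈ T' → T' ≤ Subgroup.closure {a, b} →
        Subgroup.closure {a, b} ⊓ Subgroup.normalizer (T' : Set G) ≤ cj x M := by
  classical
  have hPN : ∀ g : G, g ∈ Subgroup.normalizer (P : Set G) := fun g => by
    rw [Subgroup.normalizer_eq_top]; trivial
  obtain ⟨Λ, hΛdef⟩ : ∃ Λ : Set G, Λ = {x | (∃ k, x ^ p ^ k = 1) ∧ H11.Quad x P} := ⟨_, rfl⟩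
  have hΛ : ∀ x g : G, x ∈ Λ → g * x * g⁻¹ ∈ Λ := by
    intro x g hx
    rw [hΛdef] at hx ⊢
    obtain ⟨⟨k, hk⟩, hq⟩ := hx
    exact ⟨⟨k, by rw [conj_pow, hk]; group⟩, hq.conj g⟩
  -- the centralizer is in `M`
  obtain ⟨C, hC⟩ : ∃ C : Subgroup G, C = Subgroup.centralizer (P : Set G) := ⟨_, rfl⟩
  have hCn : C.Normal := by rw [hC]; infer_instance
  have hnsC : ∀ D : Subgroup G, D.Normal → (∀ d ∈ D, ∃ k, d ^ p ^ k ∈ C) → a₀ ∉ D := by
    intro D hD hk ha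
    apply hns
    have hle : D.map (QuotientGroup.mk' (Subgroup.centralizer (P : Set G))) ≤
        pCore p (G ⧸ Subgroup.centralizer (P : Set G)) := by
      apply Cfsg.Agent.Solv.le_pCore (hD.map _ (QuotientGroup.mk'_surjective _))
      rintro ⟨_, d, hd, rfl⟩
      obtain ⟨k, hk⟩ := hk d hd
      refine ⟨k, Subtype.ext ?_⟩
      show (QuotientGroup.mk' (Subgroup.centralizer (P : Set G)) d) ^ p ^ k = 1
      rw [← map_pow]
      apply (QuotientGroup.eq_one_iff _).2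
      rw [hC] at hk
      exact hk
    exact hle ⟨a₀, ha, rfl⟩
  have hCM : C ≤ M := by
    by_contra hcon
    have h1 : C ⊔ (S : Subgroup G) = ⊤ := by
      by_contra h2
      exact hcon (le_sup_left.trans (hM.2.2 _ le_sup_right h2))
    refine hnsC ⊤ inferInstance ?_ trivial
    intro d hd
    rw [← h1] at hd
    obtain ⟨c, hc, s, hs, rfl⟩ := (mem_sup_left_norm (by
      rw [Subgroup.normalizer_eq_top]; exact le_top)).1 hd
    obtain ⟨k, hk⟩ := S.2 ⟨s, hs⟩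
    have hk' : s ^ p ^ k = 1 := congrArg Subtype.val hk
    refine ⟨k, ?_⟩
    rw [← QuotientGroup.eq_one_iff]
    show QuotientGroup.mk' C ((c * s) ^ p ^ k) = 1
    rw [map_pow, map_mul]
    have : QuotientGroup.mk' C c = 1 := (QuotientGroup.eq_one_iff c).2 hc
    rw [this, one_mul, ← map_pow, hk', map_one]
  -- every Sylow subgroup has a unique maximal overgroup
  have hT : ∀ T : Subgroup G, IsSyl p T ⊤ → ∃ g : G, cj g (S : Subgroup G) = T ∧ UM T (cj g M) := by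
    intro T hT
    obtain ⟨g, -, hg⟩ := hT.conj_eq (isSyl_top S)
    refine ⟨g, hg, ?_⟩
    rw [← hg]
    exact hM.cj g
  have hCK : ∀ g : G, C ≤ cj g M := by
    intro g
    have := cj_mono (g := g) hCM
    rwa [cj_normal] at this
  -- the subgroup generated by `Λ ∩ S`
  have hWS : Subgroup.normalizer (Subgroup.closure (Λ ∩ (S : Subgroup G)) : Set G) ≠ ⊤ := by
    intro h1
    obtain ⟨W, hW⟩ : ∃ W : Subgroup G, W = Subgroup.closure (Λ ∩ (S : Subgroup G)) := ⟨_, rfl⟩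
    rw [← hW] at h1
    have hWn : W.Normal := Subgroup.normalizer_eq_top_iff.1 h1
    have hWSle : W ≤ (S : Subgroup G) := by
      rw [hW, Subgroup.closure_le]; exact Set.inter_subset_right
    obtain ⟨a₁, ⟨k, hk⟩, h2, h3⟩ := exists_p_part hP (hPN a₀) ha₀
    have ha₁Λ : a₁ ∈ Λ := by rw [hΛdef]; exact ⟨⟨k, hk⟩, h3⟩
    have ha₁p : IsPGroup p (Subgroup.zpowers a₁) := by
      rintro ⟨_, i, rfl⟩
      refine ⟨k, Subtype.ext ?_⟩
      show (a₁ ^ i) ^ p ^ k = 1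
      rw [← zpow_natCast, ← zpow_mul, mul_comm, zpow_mul, zpow_natCast, hk, one_zpow]
    obtain ⟨g, -, hg⟩ := (isSyl_top S).conj_le (R := Subgroup.zpowers a₁) le_top ha₁p
    have h4 : g * a₁ * g⁻¹ ∈ W := by
      rw [hW]
      exact Subgroup.subset_closure ⟨hΛ _ _ ha₁Λ, hg (conj_mem_cj (Subgroup.mem_zpowers a₁))⟩
    have h5 : a₁ ∈ W := by
      have := hWn.conj_mem _ h4 g⁻¹
      have e : g⁻¹ * (g * a₁ * g⁻¹) * g⁻¹⁻¹ = a₁ := by group
      rwa [e] at this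
    refine hnsC (W ⊔ C) inferInstance ?_ ?_
    · intro d hd
      obtain ⟨w, hw, c, hc, rfl⟩ := (mem_sup_left_norm (by
        rw [Subgroup.normalizer_eq_top]; exact le_top)).1 hd
      obtain ⟨k, hk⟩ := S.2 ⟨w, hWSle hw⟩
      have hk' : w ^ p ^ k = 1 := congrArg Subtype.val hk
      refine ⟨k, ?_⟩
      rw [← QuotientGroup.eq_one_iff]
      show QuotientGroup.mk' C ((w * c) ^ p ^ k) = 1
      rw [map_pow, map_mul]
      have : QuotientGroup.mk' C c = 1 := (QuotientGroup.eq_one_iff c).2 hc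
      rw [this, mul_one, ← map_pow, hk', map_one]
    · have e : a₀ = a₁ * (a₁⁻¹ * a₀) := by group
      rw [e]
      refine mul_mem (Subgroup.mem_sup_left h5) (Subgroup.mem_sup_right ?_)
      rw [hC]; exact h2
  have hWT : ∀ T K : Subgroup G, IsSyl p T ⊤ → UM T K →
      Subgroup.normalizer (Subgroup.closure (Λ ∩ T) : Set G) ≤ K := by
    intro T K hTs hK
    refine hK.2.2 _ (Subgroup.le_normalizer.trans (closure_inter_norm Λ hΛ T)) ?_
    intro h1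
    apply hWS
    obtain ⟨g, hg, -⟩ := hT T hTs
    have h2 : Subgroup.closure (Λ ∩ T) = cj g (Subgroup.closure (Λ ∩ (S : Subgroup G))) := by
      rw [cj_closure]
      congr 1
      rw [← hg]
      ext x
      constructor
      · rintro ⟨hx1, hx2⟩
        refine ⟨g⁻¹ * x * g, ⟨?_, mem_cj.1 hx2⟩, by group⟩
        have := hΛ x g⁻¹ hx1
        rwa [inv_inv] at this
      · rintro ⟨y, ⟨hy1, hy2⟩, rfl⟩
        exact ⟨hΛ y g hy1, conj_mem_cj hy2⟩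
    rw [h2, ← cj_normalizer] at h1
    rw [← cj_inj (g := g), h1, cj_top]
  -- `M` is not normal
  have hMn : Subgroup.normalizer (M : Set G) ≠ ⊤ := by
    intro h1
    have hMn : M.Normal := Subgroup.normalizer_eq_top_iff.1 h1
    have h2 : Subgroup.normalizer ((S : Subgroup G) : Set G) ≤ M :=
      (closure_inter_norm Λ hΛ _).trans (hWT _ _ (isSyl_top S) hM)
    apply hM.2.1
    rw [eq_top_iff]
    intro g _
    have h3 : IsSyl p (S : Subgroup G) M := (isSyl_top S).mono hM.1 le_top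
    obtain ⟨n, hn, hng⟩ := h3.frattini (y := g) (by rw [h1]; trivial)
    have h4 := M.mul_mem (M.inv_mem hn) (h2 hng)
    rwa [inv_mul_cancel_left] at h4
  -- choose the pair
  let nn : Subgroup G → Subgroup G → ℕ := fun T₁ T₂ => (Λ ∩ (T₁ ∩ T₂ : Set G)).ncard
  have hex : ∃ n : ℕ, ∃ T₁ T₂ K₁ K₂ : Subgroup G, IsSyl p T₁ ⊤ ∧ IsSyl p T₂ ⊤ ∧ UM T₁ K₁ ∧ UM T₂ K₂ ∧
      K₁ ≠ K₂ ∧ nn T₁ T₂ = n := by
    by_contra hcon
    apply hMn
    rw [eq_top_iff]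
    intro g _
    rw [mem_norm_iff]
    by_contra h1
    apply hcon
    refine ⟨_, cj g (S : Subgroup G), S, cj g M, M, ?_, isSyl_top S, hM.cj g, hM, h1, rfl⟩
    have := (isSyl_top S).conj g
    rwa [cj_top] at this
  have hbd : ∀ n : ℕ, (∃ T₁ T₂ K₁ K₂ : Subgroup G, IsSyl p T₁ ⊤ ∧ IsSyl p T₂ ⊤ ∧ UM T₁ K₁ ∧ UM T₂ K₂ ∧
      K₁ ≠ K₂ ∧ nn T₁ T₂ = n) → n ≤ Nat.card G := by
    rintro n ⟨T₁, T₂, K₁, K₂, -, -, -, -, -, rfl⟩
    rw [← Set.ncard_univ]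
    exact Set.ncard_le_ncard (Set.subset_univ _) (Set.toFinite _)
  obtain ⟨T₁, T₂, K₁, K₂, hT₁, hT₂, hK₁, hK₂, hKne, hnn⟩ :=
    Nat.findGreatest_spec (P := fun n => ∃ T₁ T₂ K₁ K₂ : Subgroup G, IsSyl p T₁ ⊤ ∧ IsSyl p T₂ ⊤ ∧
      UM T₁ K₁ ∧ UM T₂ K₂ ∧ K₁ ≠ K₂ ∧ nn T₁ T₂ = n) (hbd _ hex.choose_spec) hex.choose_spec
  have hmax : ∀ T T' K K' : Subgroup G, IsSyl p T ⊤ → IsSyl p T' ⊤ → UM T K → UM T' K' → K ≠ K' →
      nn T T' ≤ nn T₁ T₂ := by
    intro T T' K K' h1 h2 h3 h4 h5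
    rw [hnn]
    exact Nat.le_findGreatest (hbd _ ⟨T, T', K, K', h1, h2, h3, h4, h5, rfl⟩)
      ⟨T, T', K, K', h1, h2, h3, h4, h5, rfl⟩
  obtain ⟨D, hD⟩ : ∃ D : Subgroup G, D = Subgroup.closure (Λ ∩ (T₁ ∩ T₂ : Set G)) := ⟨_, rfl⟩
  have hDT₁ : D ≤ T₁ := by
    rw [hD, Subgroup.closure_le]; exact fun x hx => hx.2.1
  have hDT₂ : D ≤ T₂ := by
    rw [hD, Subgroup.closure_le]; exact fun x hx => hx.2.2
  have hΛD : Λ ∩ D = Λ ∩ (T₁ ∩ T₂ : Set G) := by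
    ext x
    constructor
    · rintro ⟨h1, h2⟩
      exact ⟨h1, hDT₁ h2, hDT₂ h2⟩
    · rintro ⟨h1, h2⟩
      refine ⟨h1, ?_⟩
      rw [hD]
      exact Subgroup.subset_closure ⟨h1, h2⟩
  have hDcl : Subgroup.closure (Λ ∩ D) = D := by rw [hΛD, hD]
  have hcardΛ : ∀ T T' : Subgroup G, IsSyl p T ⊤ → IsSyl p T' ⊤ → (Λ ∩ T : Set G).ncard = (Λ ∩ T').ncard := by
    have key : ∀ T T' : Subgroup G, IsSyl p T ⊤ → IsSyl p T' ⊤ →
        (Λ ∩ T : Set G).ncard ≤ (Λ ∩ T').ncard := by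
      intro T T' h1 h2
      obtain ⟨g, -, hg⟩ := h2.conj_eq h1
      refine Set.ncard_le_ncard_of_injOn (fun x => g * x * g⁻¹) ?_ ?_ (Set.toFinite _)
      · rintro x ⟨hx1, hx2⟩
        refine ⟨hΛ x g hx1, ?_⟩
        rw [← hg]
        exact conj_mem_cj hx2
      · intro x _ y _ hxy
        exact (MulAut.conj g).injective hxy
    intro T T' h1 h2
    exact le_antisymm (key T T' h1 h2) (key T' T h2 h1)
  have hne : ∀ (T T' K K' : Subgroup G), IsSyl p T ⊤ → IsSyl p T' ⊤ → UM T K → UM T' K' → K ≠ K' →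
      D ≤ T' → Subgroup.closure (Λ ∩ T) ≠ D := by
    intro T T' K K' h1 h2 h3 h4 h5 h6 h7
    have h8 : Λ ∩ (T : Set G) ⊆ Λ ∩ (T' : Set G) := by
      rintro x ⟨hx1, hx2⟩
      refine ⟨hx1, h6 ?_⟩
      rw [← h7]
      exact Subgroup.subset_closure ⟨hx1, hx2⟩
    have h9 : Λ ∩ (T : Set G) = Λ ∩ (T' : Set G) :=
      Set.eq_of_subset_of_ncard_le h8 (hcardΛ T' T h2 h1).le (Set.toFinite _)
    have h10 := hWT T K h1 h3
    rw [h9] at h10
    have h11 : T' ≤ K := Subgroup.le_normalizer.trans ((closure_inter_norm Λ hΛ T').trans h10)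
    have h12 : K ≤ K' := h4.2.2 _ h11 h3.2.1
    have h13 := hWT T' K' h2 h4
    rw [← h9] at h13
    have h14 : T ≤ K' := Subgroup.le_normalizer.trans ((closure_inter_norm Λ hΛ T).trans h13)
    exact h5 (le_antisymm h12 (h3.2.2 _ h14 h4.2.1))
  obtain ⟨a, haΛ, haT, haD, haN⟩ := exists_norm_elem hT₁.2.1 Λ hΛ hDT₁ hDcl
    (hne T₁ T₂ K₁ K₂ hT₁ hT₂ hK₁ hK₂ hKne hDT₂)
  obtain ⟨b, hbΛ, hbT, hbD, hbN⟩ := exists_norm_elem hT₂.2.1 Λ hΛ hDT₂ hDcl
    (hne T₂ T₁ K₂ K₁ hT₂ hT₁ hK₂ hK₁ (Ne.symm hKne) hDT₁)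
  -- key: overgroups of `D` and one more element
  have key : ∀ (T' K' : Subgroup G) (c : G), IsSyl p T' ⊤ → UM T' K' → c ∈ Λ → c ∈ T' → c ∉ D →
      ∀ T K : Subgroup G, IsSyl p T ⊤ → UM T K → D ≤ T → D ≤ T' → c ∈ T → K = K' := by
    intro T' K' c h1 h2 h3 h4 h5 T K h6 h7 h8 h9 h10
    by_contra hcon
    have h11 := hmax T T' K K' h6 h1 h7 h2 hcon
    have h12 : insert c (Λ ∩ (T₁ ∩ T₂ : Set G)) ⊆ Λ ∩ (T ∩ T' : Set G) := by
      rw [← hΛD]
      rintro x (rfl | ⟨hx1, hx2⟩)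
      · exact ⟨h3, h10, h4⟩
      · exact ⟨hx1, h8 hx2, h9 hx2⟩
    have h13 : c ∉ Λ ∩ (T₁ ∩ T₂ : Set G) := by
      rw [← hΛD]
      exact fun h => h5 h.2
    have h14 := Set.ncard_le_ncard h12 (Set.toFinite _)
    rw [Set.ncard_insert_of_notMem h13 (Set.toFinite _)] at h14
    change _ + 1 ≤ nn T T' at h14
    change (Λ ∩ (T₁ ∩ T₂ : Set G)).ncard + 1 ≤ nn T T' at h14
    have h15 : nn T₁ T₂ = (Λ ∩ (T₁ ∩ T₂ : Set G)).ncard := rfl
    omega
  have keyA := key T₁ K₁ a hT₁ hK₁ haΛ haT haD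
  have keyB := key T₂ K₂ b hT₂ hK₂ hbΛ hbT hbD
  obtain ⟨L, hL⟩ : ∃ L : Subgroup G, L = Subgroup.closure {a, b} := ⟨_, rfl⟩
  have haL : a ∈ L := by rw [hL]; exact Subgroup.subset_closure (by simp)
  have hbL : b ∈ L := by rw [hL]; exact Subgroup.subset_closure (by simp)
  have hLD : L ≤ Subgroup.normalizer (D : Set G) := by
    rw [hL, Subgroup.closure_le]
    rintro x (rfl | hx)
    · exact haN
    · rw [Set.mem_singleton_iff.1 hx]; exact hbN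
  have hDp : IsPGroup p D := isPGroup_sub hT₁.2.1 hDT₁
  have hsup : ∀ T' : Subgroup G, IsPGroup p T' → T' ≤ L → ∃ T : Subgroup G, IsSyl p T ⊤ ∧
      T' ⊔ D ≤ T := by
    intro T' h1 h2
    have h3 : IsPGroup p ↥(T' ⊔ D) := h1.to_sup_of_normal_right' hDp (h2.trans hLD)
    obtain ⟨T, h4, h5⟩ := IsSyl.exists_of_le (H := ⊤) le_top h3
    exact ⟨T, h5, h4⟩
  obtain ⟨x, hx, hxK⟩ := hT T₁ hT₁
  have hxK₁ : cj x M = K₁ := hxK.unique hK₁
  rw [hΛdef] at haΛ hbΛ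
  refine ⟨a, b, haΛ.2, hbΛ.2, haΛ.1, hbΛ.1, ?_, x, ?_⟩
  · by_contra hcon
    push Not at hcon
    rw [← hL, ← hC] at hcon
    have hCnn : L ≤ Subgroup.normalizer ((L ⊓ C : Subgroup G) : Set G) := by
      intro y hy
      exact norm_inf (Subgroup.le_normalizer hy) (by rw [Subgroup.normalizer_eq_top]; trivial)
    obtain ⟨R, haR, hR⟩ := IsSyl.exists_of_le (p := p) (H := L) (R := Subgroup.zpowers a)
      ((Subgroup.zpowers_le).2 haL) (isPGroup_sub hT₁.2.1 ((Subgroup.zpowers_le).2 haT))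
    obtain ⟨T, hTs, hTR⟩ := hsup R hR.2.1 hR.1
    obtain ⟨g, -, hgT⟩ := hT T hTs
    have h1 : cj g M = K₁ := keyA T _ hTs hgT (le_sup_right.trans hTR) hDT₁
      (hTR (Subgroup.mem_sup_left (haR (Subgroup.mem_zpowers a))))
    rw [h1] at hgT
    have hbK : b ∈ K₁ := by
      obtain ⟨c, hc, t, ht, hbct⟩ := hR.sup_eq inf_le_left hCnn (fun y hy hyo => ⟨hy, hcon y hy hyo⟩) b hbL
      rw [hbct]
      refine K₁.mul_mem ?_ (hgT.1 (hTR (Subgroup.mem_sup_left ht)))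
      rw [← h1]
      exact hCK g hc.2
    -- a Sylow subgroup of `K₁` containing `D` and `b`
    have hbp : IsPGroup p (Subgroup.zpowers b) := isPGroup_sub hT₂.2.1 ((Subgroup.zpowers_le).2 hbT)
    have h2 : IsPGroup p ↥(Subgroup.zpowers b ⊔ D) :=
      isPGroup_sub hT₂.2.1 (sup_le ((Subgroup.zpowers_le).2 hbT) hDT₂)
    obtain ⟨T₄, h3, h4⟩ := IsSyl.exists_of_le (H := K₁) (R := Subgroup.zpowers b ⊔ D)
      (sup_le ((Subgroup.zpowers_le).2 hbK) (hDT₁.trans hK₁.1)) h2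
    have h5 : IsSyl p T₁ K₁ := hT₁.mono hK₁.1 le_top
    obtain ⟨y, hy, hyT⟩ := h4.conj_eq h5
    have h6 : UM T₄ K₁ := by
      have := hK₁.cj y
      rwa [hyT, mem_norm_iff.1 (Subgroup.le_normalizer hy)] at this
    have h7 : IsSyl p T₄ ⊤ := by
      have := hT₁.conj y
      rwa [hyT, cj_top] at this
    exact hKne (keyB T₄ K₁ h7 h6 (le_sup_right.trans h3) hDT₂
      (h3 (Subgroup.mem_sup_left (Subgroup.mem_zpowers b))))
  · intro T' hT'p haT' hT'L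
    rw [← hL] at hT'L ⊢
    obtain ⟨T, hTs, hTR⟩ := hsup T' hT'p hT'L
    obtain ⟨g, -, hgT⟩ := hT T hTs
    have h1 : cj g M = K₁ := keyA T _ hTs hgT (le_sup_right.trans hTR) hDT₁
      (hTR (Subgroup.mem_sup_left haT'))
    rw [h1] at hgT
    rintro n ⟨hnL, hnT⟩
    rw [hxK₁]
    have h2 : cj n (T' ⊔ D) = T' ⊔ D := by
      rw [cj_sup, mem_norm_iff.1 hnT, mem_norm_iff.1 (hLD hnL)]
    have h3 : T' ⊔ D ≤ cj n T := by rw [← h2]; exact cj_mono hTR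
    have h4 : IsSyl p (cj n T) ⊤ := by
      have := hTs.conj n
      rwa [cj_top] at this
    have h5 : cj n K₁ = K₁ := keyA (cj n T) _ h4 (hgT.cj n) (le_sup_right.trans h3) hDT₁
      (h3 (Subgroup.mem_sup_left haT'))
    have h6 : n ∈ Subgroup.normalizer (K₁ : Set G) := mem_norm_iff.2 h5
    refine hK₁.2.2 _ (hK₁.1.trans Subgroup.le_normalizer) ?_ h6
    intro h7
    apply hMn
    rw [← hxK₁, ← cj_normalizer] at h7
    rw [← cj_inj (g := x), h7, cj_top]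

end AL

end Cfsg.Agent.QdInv
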