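import Cfsg.Agent.QdInv.SfStep
import Cfsg.Agent.QdInv.AlpLyons
/-!
Climbing: a property of groups that is inherited upwards, invariant under control of strong fusion and true for the
local configuration given by two quadratic elements holds for the normalizer of `W(S)` unless `W` controls strong fusion.
-/
set_option autoImplicit false
set_option linter.all false

namespace Cfsg.Agent.QdInv

open Cfsg Cfsg.Agent.H33

universe u

structure EP (p : ℕ) [Fact p.Prime] (E : ∀ (X : Type u) [Group X], Prop) : Prop where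
  inj : ∀ {X Y : Type u} [Group X] [Group Y] (f : X →* Y), Function.Injective f → E X → E Y
  quot : ∀ {X : Type u} [Group X] [Finite X] (N : Subgroup X) [N.Normal], E (X ⧸ N) → E X
  ctl : ∀ {X : Type u} [Group X] [Finite X] (S : Sylow p X) (H : Subgroup X), (S : Subgroup X) ≤ H →
    (∀ A ≤ (S : Subgroup X), ∀ g, cj g A ≤ (S : Subgroup X) → ∃ h ∈ H, ∀ a ∈ A,
      g * a * g⁻¹ = h * a * h⁻¹) → E X → E ↥H
  loc : ∀ {X : Type u} [Group X] [Finite X] (P : Subgroup X), IsPGroup p P → ∀ a b : X,
    Subgroup.closure {a, b} ≤ Subgroup.normalizer (P : Set X) → H11.Quad a P → H11.Quad b P →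
    (∃ k, a ^ p ^ k = 1) →
    (∃ g ∈ Subgroup.closure {a, b}, (orderOf g).Coprime p ∧ g ∉ Subgroup.centralizer (P : Set X)) →
    ∃ T' : Subgroup X, IsPGroup p T' ∧ a ∈ T' ∧ T' ≤ Subgroup.closure {a, b} ∧
      E ↥(P ⊔ (Subgroup.closure {a, b} ⊓ Subgroup.normalizer (T' : Set X)))

section
variable {p : ℕ} [hp : Fact p.Prime] {E : ∀ (X : Type u) [Group X], Prop}

theorem EP.mono (hE : EP p E) {X : Type u} [Group X] {H K : Subgroup X} (h : H ≤ K) (hH : E ↥H) : E ↥K :=
  hE.inj (Subgroup.inclusion h) (Subgroup.inclusion_injective h) hH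

theorem EP.cj (hE : EP p E) {X : Type u} [Group X] {H : Subgroup X} (x : X) (hH : E ↥(cj x H)) : E ↥H := by
  refine hE.inj (((MulAut.conj x⁻¹).toMonoidHom.comp (H33.cj x H).subtype).codRestrict H ?_) ?_ hH
  · rintro ⟨y, hy⟩
    have := mem_cj.1 hy
    show x⁻¹ * y * x⁻¹⁻¹ ∈ H
    rwa [inv_inv]
  · intro y z hyz
    apply Subtype.ext
    exact (MulAut.conj x⁻¹).injective (congrArg Subtype.val hyz)

theorem EP.surj (hE : EP p E) {X Y : Type u} [Group X] [Finite X] [Group Y] (f : X →* Y)
    (hf : Function.Surjective f) (hY : E Y) : E X := by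
  apply hE.quot f.ker
  exact hE.inj (QuotientGroup.quotientKerEquivOfSurjective f hf).symm.toMonoidHom
    (QuotientGroup.quotientKerEquivOfSurjective f hf).symm.injective hY

theorem EP.map (hE : EP p E) {X Y : Type u} [Group X] [Finite X] [Group Y] (f : X →* Y) (H : Subgroup X)
    (h : E ↥(H.map f)) : E ↥H :=
  hE.surj (f.subgroupMap H) (f.subgroupMap_surjective H) h

end

section
variable {p : ℕ} [hp : Fact p.Prime] {W : ∀ (Q : Type u) [Group Q], Subgroup Q}

theorem nFam_single {X : Type u} [Group X] (K R : Subgroup X) :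
    nFam (ind X ({@W} : Set (∀ (Q : Type u) [Group Q], Subgroup Q))) K R =
      {K ⊓ Subgroup.normalizer ((inducedFunctor W R : Subgroup X) : Set X)} := by
  ext N
  constructor
  · rintro ⟨_, ⟨W', hW', rfl⟩, rfl⟩
    rw [Set.mem_singleton_iff] at hW'
    subst hW'
    rfl
  · intro h
    rw [Set.mem_singleton_iff] at h
    exact ⟨_, ⟨_, rfl, rfl⟩, h⟩

/-- `K` is controlled with respect to its Sylow subgroup `R`. -/
def CK (W : ∀ (Q : Type u) [Group Q], Subgroup Q) {X : Type u} [Group X] (K R : Subgroup X) : Prop :=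
  ∀ A ≤ R, ∀ h ∈ K, cj h A ≤ R → ∃ n ∈ K ⊓ Subgroup.normalizer ((inducedFunctor W R : Subgroup X) : Set X),
    ∀ a ∈ A, h * a * h⁻¹ = n * a * n⁻¹

theorem CK.of_family {X : Type u} [Group X] [Finite X] (hW : IsCharPFunctor.{u} p W) {K R : Subgroup X}
    (hR : IsSyl p R K) (h : FamilyControlsStrongFusionIn p
      (ind X ({@W} : Set (∀ (Q : Type u) [Group Q], Subgroup Q))) K) : CK W K R := by
  have hW' : ∀ W' ∈ ({@W} : Set (∀ (Q : Type u) [Group Q], Subgroup Q)), IsCharPFunctor.{u} p W' := by
    intro W' h; rw [Set.mem_singleton_iff] at h; subst h; exact hW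
  have h1 := SFcontrol.of_family (ind_conj hW') h hR
  intro A hA g hg hgA
  have h2 := h1 A hA g hg hgA
  rw [nFam_single] at h2
  obtain ⟨n, hn, h3⟩ := h2.single_fam
  exact ⟨n, hn, fun a ha => (h3 a ha).symm⟩

theorem CK.sfc {X : Type u} [Group X] {K R : Subgroup X} (h : CK W K R) {A : Subgroup X} (hA : A ≤ R)
    {g : X} (hg : g ∈ K) (hgA : cj g A ≤ R) :
    SFc (nFam (ind X ({@W} : Set (∀ (Q : Type u) [Group Q], Subgroup Q))) ⊤ R) R A g := by
  obtain ⟨n, hn, h1⟩ := h A hA g hg hgA
  refine SFc.congr ?_ (g := n) h1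
  refine SFc.single (N := ⊤ ⊓ Subgroup.normalizer ((inducedFunctor W R : Subgroup X) : Set X)) ?_
    ⟨trivial, hn.2⟩ hA ?_
  · rw [nFam_single]; rfl
  · rw [← cj_congr h1]; exact hgA

theorem CK.family {X : Type u} [Group X] [Finite X] {S : Sylow p X}
    (h : CK W (⊤ : Subgroup X) (S : Subgroup X)) : FamilyControlsStrongFusionIn p
      (ind X ({@W} : Set (∀ (Q : Type u) [Group Q], Subgroup Q))) ⊤ :=
  family_iff.2 ⟨(S : Subgroup X), isSyl_top S, fun A hA g hg hgA => h.sfc hA hg hgA⟩

variable {E : ∀ (X : Type u) [Group X], Prop}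

/-- `E` for the normalizer inside the subgroup `K`, from `↥K`. -/
theorem E_sub (hE : EP p E) (hW : IsCharPFunctor.{u} p W) {X : Type u} [Group X] [Finite X]
    {K R : Subgroup X} (hR : IsSyl p R K)
    (h : E ↥(Subgroup.normalizer ((inducedFunctor W (R.subgroupOf K) : Subgroup ↥K) : Set ↥K))) :
    E ↥(K ⊓ Subgroup.normalizer ((inducedFunctor W R : Subgroup X) : Set X)) := by
  have hmap : (R.subgroupOf K).map K.subtype = R := by
    rw [Subgroup.subgroupOf_map_subtype, inf_eq_left]; exact hR.1
  have hp' : IsPGroup p ↥(R.subgroupOf K) := hR.2.1.comap_of_injective K.subtype K.subtype_injective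
  have h1 := H2.inducedFunctor_map hW K.subtype (R.subgroupOf K) hp' (fun x _ hx => Subtype.ext hx)
  rw [hmap] at h1
  have hmem : ∀ m : ↥K, m ∈ Subgroup.normalizer ((inducedFunctor W (R.subgroupOf K) : Subgroup ↥K) : Set ↥K) →
      (m : X) ∈ Subgroup.normalizer ((inducedFunctor W R : Subgroup X) : Set X) := by
    intro m hm
    rw [h1]
    apply mem_norm_iff.2
    have h2 := mem_norm_iff.1 hm
    have h3 := map_cj K.subtype m (inducedFunctor W (R.subgroupOf K))
    rw [h2] at h3
    exact h3.symm
  refine hE.inj ((K.subtype.comp (Subgroup.subtype _)).codRestrict _ (fun m => ⟨m.1.2, hmem m.1 m.2⟩)) ?_ h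
  intro a b hab
  have h3 : ((a : ↥K) : X) = ((b : ↥K) : X) := congrArg
    (fun z : ↥(K ⊓ Subgroup.normalizer ((inducedFunctor W R : Subgroup X) : Set X)) => (z : X)) hab
  exact Subtype.ext (Subtype.ext h3)

end

section Main

variable {p : ℕ} [hp : Fact p.Prime] {W : ∀ (Q : Type u) [Group Q], Subgroup Q}
  {E : ∀ (X : Type u) [Group X], Prop}

theorem climb (hE : EP p E) (hW : IsCharPFunctor.{u} p W)
    (hst : ∀ (X : Type u) [Group X] [Finite X] (S : Sylow p X),
      Subgroup.centralizer ((pCore p X : Subgroup X) : Set X) ≤ pCore p X →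
      (∀ (P : Subgroup X) [P.Normal], IsPGroup p P → IsPStableOn p P) →
      (inducedFunctor W (S : Subgroup X)).Normal) :
    ∀ n : ℕ, ∀ (X : Type u) [Group X] [Finite X], Nat.card X ≤ n →
      FamilyControlsStrongFusionIn p (ind X ({@W} : Set (∀ (Q : Type u) [Group Q], Subgroup Q))) ⊤ ∨
      ∀ S : Sylow p X, E ↥(Subgroup.normalizer ((inducedFunctor W (S : Subgroup X) : Subgroup X) : Set X)) := by
  have hW' : ∀ W' ∈ ({@W} : Set (∀ (Q : Type u) [Group Q], Subgroup Q)), IsCharPFunctor.{u} p W' := by
    intro W' h; rw [Set.mem_singleton_iff] at h; subst h; exact hW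
  intro n
  induction n with
  | zero =>
    intro X _ _ h
    have := Nat.card_pos (α := X)
    omega
  | succ n IH =>
  intro X _ _ hcard
  by_contra hcon
  push Not at hcon
  obtain ⟨hF, S, hES⟩ := hcon
  have hconj := ind_conj (G := X) hW'
  have hWc : IsConjugacyFunctor p (inducedFunctor (G := X) W) := induced_conj hW
  -- proper subgroups
  have F1 : ∀ K R : Subgroup X, K ≠ ⊤ → IsSyl p R K → CK W K R ∨
      E ↥(K ⊓ Subgroup.normalizer ((inducedFunctor W R : Subgroup X) : Set X)) := by
    intro K R hK hR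
    have hlt : Nat.card K < Nat.card X := by
      rw [← Subgroup.card_top (G := X)]
      exact card_lt_card_of_lt (lt_top_iff_ne_top.2 hK)
    rcases IH ↥K (by omega) with h | h
    · left
      exact CK.of_family hW hR (family_subgroup hW' h)
    · right
      exact E_sub hE hW hR (h hR.toSylow)
  have F3 : ∀ K R : Subgroup X, K ≠ ⊤ → IsSyl p R K → E ↥K →
      E ↥(K ⊓ Subgroup.normalizer ((inducedFunctor W R : Subgroup X) : Set X)) := by
    intro K R hK hR hEK
    rcases F1 K R hK hR with h | h
    · have h1 := hE.ctl hR.toSylow ((Subgroup.normalizer ((inducedFunctor W R : Subgroup X) : Set X)).subgroupOf K)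
        (by
          rw [hR.toSylow_coe]
          exact Subgroup.comap_mono (cf_norm_le hWc hR.2.1)) (by
          intro A hA g hg
          rw [hR.toSylow_coe] at hA hg
          have hA' : A.map K.subtype ≤ R := by
            rw [Subgroup.map_le_iff_le_comap]; exact hA
          have hg' : cj (g : X) (A.map K.subtype) ≤ R := by
            have := map_cj K.subtype g A
            change _ = cj (g : X) (A.map K.subtype) at this
            rw [← this, Subgroup.map_le_iff_le_comap]; exact hg
          obtain ⟨m, hm, h2⟩ := h _ hA' g g.2 hg'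
          refine ⟨⟨m, hm.1⟩, hm.2, fun a ha => Subtype.ext (h2 _ ⟨a, ha, rfl⟩)⟩) hEK
      refine hE.inj ((K.subtype.comp (Subgroup.subtype _)).codRestrict _ (fun m => ⟨m.1.2, m.2⟩)) ?_ h1
      intro a b hab
      have h3 : ((a : ↥K) : X) = ((b : ↥K) : X) := congrArg
        (fun z : ↥(K ⊓ Subgroup.normalizer ((inducedFunctor W R : Subgroup X) : Set X)) => (z : X)) hab
      exact Subtype.ext (Subtype.ext h3)
    · exact h
  -- case A
  by_cases hO : pPrimeCore p X = ⊥
  swap
  · have hc : (Nat.card (pPrimeCore p X)).Coprime p := Cfsg.Agent.Solv.pPrimeCore_card_coprime p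
    have hlt : Nat.card (X ⧸ pPrimeCore p X) < Nat.card X := by
      have h1 := Subgroup.card_eq_card_quotient_mul_card_subgroup (pPrimeCore p X)
      have h2 : 1 < Nat.card (pPrimeCore p X) := by
        rw [Finite.one_lt_card_iff_nontrivial, Subgroup.nontrivial_iff_ne_bot]; exact hO
      have h3 : 0 < Nat.card (X ⧸ pPrimeCore p X) := Nat.card_pos
      rw [h1]
      nlinarith
    rcases IH (X ⧸ pPrimeCore p X) (by omega) with h | h
    · exact hF (sf_quotient_pprime hW' _ hc h)
    · apply hES
      set f := QuotientGroup.mk' (pPrimeCore p X) with hf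
      have hfs : Function.Surjective f := QuotientGroup.mk'_surjective _
      have hker := ker_coprime (N := pPrimeCore p X) hc
      have hinj : ∀ x ∈ (S : Subgroup X), f x = 1 → x = 1 := by
        intro x hx hfx
        obtain ⟨k, hk⟩ := S.2 ⟨x, hx⟩
        exact hker x hfx ⟨k, congrArg Subtype.val hk⟩
      have h1 := h (S.mapSurjective hfs)
      rw [Sylow.coe_mapSurjective hfs S, H2.inducedFunctor_map hW f (S : Subgroup X) S.2 hinj] at h1
      apply hE.map f
      refine hE.mono ?_ h1
      intro x' hx'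
      obtain ⟨x, hx, hxN, -⟩ := lift_pprime f S.2 (H2.inducedFunctor_le _) (cf_norm_le hWc S.2) hker
        (hfs x') hx' (A := ⊥) bot_le (by rw [Subgroup.map_bot, cj_bot]; exact bot_le)
      exact ⟨x, hxN, hx⟩
  -- case B
  by_cases hQ1 : pCore p X = ⊥
  · apply hF
    refine family_iff.2 ⟨(S : Subgroup X), isSyl_top S, ?_⟩
    refine strong_local_global S _ hconj {T | IsWellPlaced p (inducedFunctor W) (S : Subgroup X) T} ?_ ?_
    · intro T hT hne
      obtain ⟨g, hg1, hg2⟩ := exists_wellPlaced hWc S hT
      exact ⟨g, hg1, hg2, IsWellPlaced_zero hg2⟩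
    · intro T hTD hTS hne hTsyl
      have hnetop : ∀ U : Subgroup X, U ≤ (S : Subgroup X) → U ≠ ⊥ →
          Subgroup.normalizer (U : Set X) ≠ ⊤ := by
        intro U hU hU1 h
        apply hU1
        rw [← le_bot_iff, ← hQ1]
        exact NonCons.norm_of_normal_p (isPGroup_sub S.2 hU) h
      rcases F1 _ _ (hnetop T hTS hne) hTsyl with h | h
      · exact family_iff.2 ⟨_, hTsyl, fun A hA g hg hgA => by
          obtain ⟨m, hm, h1⟩ := h A hA g hg hgA
          refine SFc.congr ?_ (g := m) h1
          refine SFc.single (N := Subgroup.normalizer ((T : Subgroup X) : Set X) ⊓ Subgroup.normalizer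
            ((inducedFunctor W (nS (S : Subgroup X) T) : Subgroup X) : Set X)) ?_ hm hA ?_
          · rw [nFam_single]; rfl
          · rw [← cj_congr h1]; exact hgA⟩
      · exfalso
        apply hES
        -- the tower
        let τ := functorTower (inducedFunctor (G := X) W) (S : Subgroup X) T
        have hτS : ∀ i, τ i ≤ (S : Subgroup X) := fun i => tower_le hWc S.2 hTS i
        have hτne : ∀ i, τ i ≠ ⊥ := by
          intro i
          induction i with
          | zero => exact hne
          | succ i ih =>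
            refine cf_ne_bot hWc (isPGroup_nS S.2) ?_
            intro h1
            apply ih
            rw [← le_bot_iff, ← h1]
            exact le_inf (hτS i) Subgroup.le_normalizer
        have hτE : ∀ i, E ↥(Subgroup.normalizer ((τ (i + 1) : Subgroup X) : Set X)) := by
          intro i
          induction i with
          | zero => exact hE.mono inf_le_right h
          | succ i ih =>
            have h1 : IsSyl p (nS (S : Subgroup X) (τ (i + 1)))
                (Subgroup.normalizer ((τ (i + 1) : Subgroup X) : Set X)) :=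
              isSyl_nS_iff.2 (hTD.2 (i + 1))
            exact hE.mono inf_le_right (F3 _ _ (hnetop _ (hτS _) (hτne _)) h1 ih)
        rcases tower_card hWc S T (Nat.card (S : Subgroup X)) with h1 | h1
        · have h2 : τ (Nat.card (S : Subgroup X) + 1) = inducedFunctor W (S : Subgroup X) := by
            show inducedFunctor W (nS (S : Subgroup X) (τ (Nat.card (S : Subgroup X)))) = _
            have h3 : nS (S : Subgroup X) (τ (Nat.card (S : Subgroup X))) = (S : Subgroup X) := h1
            rw [h3]
          have h3 := hτE (Nat.card (S : Subgroup X))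
          rw [h2] at h3
          exact h3
        · exfalso
          have h2 : Nat.card (nS (S : Subgroup X) (functorTower (inducedFunctor W) (S : Subgroup X) T
            (Nat.card (S : Subgroup X)))) ≤ Nat.card (S : Subgroup X) := Subgroup.card_le_of_le inf_le_left
          omega
  -- proper overgroups of `S`
  have hSK : ∀ K : Subgroup X, (S : Subgroup X) ≤ K → K ≠ ⊤ → CK W K (S : Subgroup X) := by
    intro K hK hK'
    rcases F1 K S hK' ((isSyl_top S).mono hK le_top) with h | h
    · exact h
    · exact absurd (hE.mono inf_le_right h) hES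
  have hSE : ∀ K : Subgroup X, (S : Subgroup X) ≤ K → K ≠ ⊤ → ¬ E ↥K := by
    intro K hK hK' h
    exact hES (hE.mono inf_le_right (F3 K S hK' ((isSyl_top S).mono hK le_top) h))
  -- nonconstrained case
  by_cases hcen : (S : Subgroup X) ⊓ Subgroup.centralizer ((pCore p X : Subgroup X) : Set X) ≤ pCore p X
  swap
  · apply hF
    refine sf_noncons hW' S hQ1 hcen (fun K hK hK' A hA h hh hhA => (hSK K hK hK').sfc hA hh hhA) ?_
    have hlt : Nat.card (X ⧸ pCore p X) < Nat.card X := by
      have h1 := Subgroup.card_eq_card_quotient_mul_card_subgroup (pCore p X)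
      have h2 : 1 < Nat.card (pCore p X) := by
        rw [Finite.one_lt_card_iff_nontrivial, Subgroup.nontrivial_iff_ne_bot]; exact hQ1
      have h3 : 0 < Nat.card (X ⧸ pCore p X) := Nat.card_pos
      rw [h1]
      nlinarith
    rcases IH (X ⧸ pCore p X) (by omega) with h | h
    · exact h
    · exfalso
      set f := QuotientGroup.mk' (pCore p X) with hf
      have hfs : Function.Surjective f := QuotientGroup.mk'_surjective _
      have hQS : pCore p X < (S : Subgroup X) := by
        refine lt_of_le_of_ne (Cfsg.Agent.Solv.pCore_le_sylow S) ?_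
        intro he
        apply hcen
        rw [he]
        exact inf_le_left
      have h1 := h (S.mapSurjective hfs)
      rw [Sylow.coe_mapSurjective hfs S] at h1
      have h2 := comap_W_ne hW S (pCore p X) le_rfl hQS
      rw [← Subgroup.comap_normalizer_eq_of_surjective _ hfs] at h2
      refine hSE _ ?_ h2 ?_
      · have := S_le_comap_W hW S (pCore p X)
        rwa [← Subgroup.comap_normalizer_eq_of_surjective _ hfs] at this
      · apply hE.map f
        rw [Subgroup.map_comap_eq_self_of_surjective hfs]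
        exact h1
  -- constrained case
  have hcons := cent_pCore_le S hO hcen
  obtain ⟨M, hM⟩ : ∃ M : Subgroup X, M =
    Subgroup.normalizer ((inducedFunctor W (S : Subgroup X) : Subgroup X) : Set X) := ⟨_, rfl⟩
  rw [← hM] at hES
  have hSM : (S : Subgroup X) ≤ M := by rw [hM]; exact cf_norm_le hWc S.2
  have hMne : M ≠ ⊤ := by
    intro h
    apply hF
    apply CK.family (S := S)
    intro A hA g _ hgA
    exact ⟨g, ⟨trivial, by rw [← hM, h]; trivial⟩, fun _ _ => rfl⟩
  have hQS : pCore p X ≤ (S : Subgroup X) := Cfsg.Agent.Solv.pCore_le_sylow S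
  have hUM : UM (S : Subgroup X) M := by
    refine ⟨hSM, hMne, fun K hK hK' k hk => ?_⟩
    obtain ⟨m, hm, h1⟩ := hSK K hK hK' (pCore p X) hQS k hk (by rw [cj_normal]; exact hQS)
    have h2 : m⁻¹ * k ∈ Subgroup.centralizer ((pCore p X : Subgroup X) : Set X) := by
      apply Subgroup.mem_centralizer_iff.2
      intro q hq
      have h3 := h1 q hq
      have h4 : m⁻¹ * (k * q * k⁻¹) * m = q := by rw [h3]; group
      calc q * (m⁻¹ * k) = (m⁻¹ * (k * q * k⁻¹) * m) * (m⁻¹ * k) := by rw [h4]
        _ = m⁻¹ * k * q := by group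
    have h3 : m⁻¹ * k ∈ M := hSM (hQS (hcons h2))
    have h4 : m ∈ M := by rw [hM]; exact hm.2
    have h5 := M.mul_mem h4 h3
    rwa [mul_inv_cancel_left] at h5
  -- not `p`-stable
  have hns : ¬ ∀ (P : Subgroup X) [P.Normal], IsPGroup p P → IsPStableOn p P := by
    intro h
    have := hst X S hcons h
    apply hMne
    rw [hM]
    exact Subgroup.normalizer_eq_top_iff.2 this
  push Not at hns
  obtain ⟨P, hPn, hPp, hPs⟩ := hns
  unfold IsPStableOn at hPs
  push Not at hPs
  obtain ⟨a₀, hq, hns⟩ := hPs
  obtain ⟨a, b, hqa, hqb, hap, hbp, hg, x, hx⟩ := exists_pair S M hUM P hPp (H11.Quad.of_comm hq) hns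
  obtain ⟨T', h1, h2, h3, h4⟩ := hE.loc P hPp a b (by
    rw [Subgroup.normalizer_eq_top]; exact le_top) hqa hqb hap hg
  apply hES
  apply hE.cj x
  refine hE.mono (sup_le ?_ (hx T' h1 h2 h3)) h4
  have h5 : P ≤ pCore p X := Cfsg.Agent.Solv.le_pCore hPn hPp
  have h6 : pCore p X ≤ cj x (S : Subgroup X) := by
    have := cj_mono (g := x) hQS
    rwa [cj_normal] at this
  exact h5.trans (h6.trans (cj_mono hSM))

end Main

end Cfsg.Agent.QdInv
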