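import Cfsg.Agent.H33.SecControl
import Cfsg.Agent.Cop.Basic
/-!
Real `p`-elements (inverted by some element).
-/
set_option autoImplicit false
set_option linter.all false

namespace Cfsg.Agent.QdInv

open Cfsg Cfsg.Agent.H33

universe u v

/-- some nonidentity `p`-element of `X` is inverted in `X`. -/
def RealP (p : ℕ) (X : Type*) [Group X] : Prop :=
  ∃ x g : X, (∃ k, x ^ p ^ k = 1) ∧ x ≠ 1 ∧ g * x * g⁻¹ = x⁻¹

theorem RealP.inj {p : ℕ} {X Y : Type*} [Group X] [Group Y] (f : X →* Y)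
    (hf : Function.Injective f) (h : RealP p X) : RealP p Y := by
  obtain ⟨x, g, ⟨k, hk⟩, hx, hg⟩ := h
  refine ⟨f x, f g, ⟨k, by rw [← map_pow, hk, map_one]⟩, fun h1 => hx (hf (by rw [h1, map_one])), ?_⟩
  rw [← map_inv, ← map_inv, ← map_mul, ← map_mul, hg]

section Sec

variable {G : Type*} [Group G] {P₁ P₂ : Subgroup G}

/-- `g` inverts `P₂ / P₁` -/
def Iv (P₁ P₂ : Subgroup G) (g : G) : Prop := ∀ x ∈ P₂, g * x * g⁻¹ * x ∈ P₁
/-- `g` centralizes `P₂ / P₁` -/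
def Ce (P₁ P₂ : Subgroup G) (g : G) : Prop := ∀ x ∈ P₂, g * x * g⁻¹ * x⁻¹ ∈ P₁

theorem Ce.one : Ce P₁ P₂ (1 : G) := by intro x _; simp [P₁.one_mem]

theorem Iv.mul_Ce {g h : G} (hg : Iv P₁ P₂ g) (hh : Ce P₁ P₂ h)
    (hn : g ∈ Subgroup.normalizer (P₁ : Set G)) : Iv P₁ P₂ (g * h) := by
  intro x hx
  have h1 := (Subgroup.mem_normalizer_iff.1 hn _).1 (hh x hx)
  have h2 := P₁.mul_mem h1 (hg x hx)
  have e : g * (h * x * h⁻¹ * x⁻¹) * g⁻¹ * (g * x * g⁻¹ * x) = g * h * x * (g * h)⁻¹ * x := by group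
  rwa [e] at h2

theorem Ce.mul_Ce {g h : G} (hg : Ce P₁ P₂ g) (hh : Ce P₁ P₂ h)
    (hn : g ∈ Subgroup.normalizer (P₁ : Set G)) : Ce P₁ P₂ (g * h) := by
  intro x hx
  have h1 := (Subgroup.mem_normalizer_iff.1 hn _).1 (hh x hx)
  have h2 := P₁.mul_mem h1 (hg x hx)
  have e : g * (h * x * h⁻¹ * x⁻¹) * g⁻¹ * (g * x * g⁻¹ * x⁻¹) = g * h * x * (g * h)⁻¹ * x⁻¹ := by group
  rwa [e] at h2

theorem Iv.mul_Iv {g h : G} (hg : Iv P₁ P₂ g) (hh : Iv P₁ P₂ h)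
    (hn : g ∈ Subgroup.normalizer (P₁ : Set G)) : Ce P₁ P₂ (g * h) := by
  intro x hx
  have h1 := (Subgroup.mem_normalizer_iff.1 hn _).1 (hh x hx)
  have h2 := P₁.mul_mem h1 (hg x⁻¹ (P₂.inv_mem hx))
  have e : g * (h * x * h⁻¹ * x) * g⁻¹ * (g * x⁻¹ * g⁻¹ * x⁻¹) = g * h * x * (g * h)⁻¹ * x⁻¹ := by group
  rwa [e] at h2

theorem Ce.pow {g : G} (hg : Ce P₁ P₂ g) (hn : g ∈ Subgroup.normalizer (P₁ : Set G)) (k : ℕ) :
    Ce P₁ P₂ (g ^ k) := by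
  induction k with
  | zero => rw [pow_zero]; exact Ce.one
  | succ k ih => rw [pow_succ']; exact hg.mul_Ce ih hn

theorem real_of_section [Finite G] {p : ℕ} [hp : Fact p.Prime] (hp2 : p ≠ 2) (hP : IsPGroup p P₂)
    (h12 : P₁ ≤ P₂) (hn : P₂ ≤ Subgroup.normalizer (P₁ : Set G)) {z : G}
    (hz1 : z ∈ Subgroup.normalizer (P₁ : Set G)) (hz2 : z ∈ Subgroup.normalizer (P₂ : Set G))
    (hinv : Iv P₁ P₂ z) {w : G} (hw : w ∈ P₂) (hw' : w ∉ P₁) :
    ∃ x ∈ P₂, ∃ g ∈ Subgroup.zpowers z, x ≠ 1 ∧ g * x * g⁻¹ = x⁻¹ := by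
  obtain ⟨k, m, hm, hkm⟩ := Nat.exists_eq_two_pow_mul_odd (orderOf_pos z).ne'
  obtain ⟨i, rfl⟩ := hm
  obtain ⟨z', hz'⟩ : ∃ z' : G, z' = z ^ (2 * i + 1) := ⟨_, rfl⟩
  have hz'z : z' ∈ Subgroup.zpowers z := by rw [hz']; exact Subgroup.npow_mem_zpowers z _
  have hz'1 : z' ∈ Subgroup.normalizer (P₁ : Set G) := by rw [hz']; exact pow_mem hz1 _
  have hz'2 : z' ∈ Subgroup.normalizer (P₂ : Set G) := by rw [hz']; exact pow_mem hz2 _
  have hIv' : Iv P₁ P₂ z' := by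
    rw [hz', pow_succ', pow_mul]
    refine hinv.mul_Ce (Ce.pow ?_ (pow_mem hz1 _) _) hz1
    rw [pow_two]
    exact hinv.mul_Iv hinv hz1
  have hz'o : z' ^ 2 ^ k = 1 := by
    rw [hz', ← pow_mul, mul_comm, ← hkm, pow_orderOf_eq_one]
  obtain ⟨y, hy⟩ : ∃ y : G, y = z' * z' := ⟨_, rfl⟩
  have hyC : Ce P₁ P₂ y := by rw [hy]; exact hIv'.mul_Iv hIv' hz'1
  have hy1 : y ∈ Subgroup.normalizer (P₁ : Set G) := by rw [hy]; exact mul_mem hz'1 hz'1
  have hy2 : y ∈ Subgroup.normalizer (P₂ : Set G) := by rw [hy]; exact mul_mem hz'2 hz'2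
  have hyo : y ^ 2 ^ k = 1 := by
    rw [hy, ← pow_two, ← pow_mul, mul_comm, pow_mul, hz'o, one_pow]
  have hcop : (Nat.card (Subgroup.zpowers y)).Coprime (Nat.card P₂) := by
    rw [Nat.card_zpowers]
    obtain ⟨n, hn'⟩ := hP.exists_card_eq
    rw [hn']
    refine Nat.Coprime.coprime_dvd_left (orderOf_dvd_of_pow_eq_one hyo) ?_
    exact Nat.Coprime.pow _ _ ((Nat.coprime_primes Nat.prime_two hp.out).2 (Ne.symm hp2))
  obtain ⟨c, hc, hcw⟩ := Cfsg.Agent.Cop.fixed_points_quotient (Subgroup.zpowers y) P₂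
    ((Subgroup.zpowers_le).2 hy2) hcop (Or.inl (by
      apply Group.isSolvable_of_comm
      rintro ⟨_, i, rfl⟩ ⟨_, j, rfl⟩
      exact Subtype.ext ((Commute.refl y).zpow_zpow i j).eq)) P₁ h12 hn ((Subgroup.zpowers_le).2 hy1) w hw (by
      intro a ha
      rw [← mem_powers_iff_mem_zpowers] at ha
      obtain ⟨j, rfl⟩ := ha
      exact hyC.pow hy1 j w hw)
  have hyc : y * c * y⁻¹ = c := by
    have := Subgroup.mem_centralizer_iff.1 hc.2 y (Subgroup.mem_zpowers y)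
    rw [this]; group
  refine ⟨c⁻¹ * (z' * c * z'⁻¹), ?_, z', hz'z, ?_, ?_⟩
  · exact P₂.mul_mem (P₂.inv_mem hc.1) ((Subgroup.mem_normalizer_iff.1 hz'2 c).1 hc.1)
  · intro h1
    apply hw'
    have h2 : z' * c * z'⁻¹ = c := (inv_mul_eq_one.1 h1).symm
    have h3 := hIv' c hc.1
    rw [h2] at h3
    -- `c * c ∈ P₁`, `c` has odd order
    have h4 : Odd (orderOf c) := by
      obtain ⟨n, hn'⟩ := hP ⟨c, hc.1⟩
      have h5 : c ^ p ^ n = 1 := congrArg Subtype.val hn'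
      exact ((hp.out.odd_of_ne_two hp2).pow).of_dvd_nat (orderOf_dvd_of_pow_eq_one h5)
    obtain ⟨j, hj⟩ := h4
    have h5 : (c * c) ^ (j + 1) = c := by
      rw [← pow_two, ← pow_mul]
      have : 2 * (j + 1) = orderOf c + 1 := by omega
      rw [this, pow_succ, pow_orderOf_eq_one, one_mul]
    have h6 : c ∈ P₁ := by rw [← h5]; exact P₁.pow_mem h3 _
    have h7 := P₁.mul_mem h6 (P₁.inv_mem hcw)
    have e : c * (w⁻¹ * c)⁻¹ = w := by group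
    rwa [e] at h7
  · calc z' * (c⁻¹ * (z' * c * z'⁻¹)) * z'⁻¹ = (z' * c * z'⁻¹)⁻¹ * (y * c * y⁻¹) := by rw [hy]; group
      _ = (z' * c * z'⁻¹)⁻¹ * c := by rw [hyc]
      _ = _ := by group

end Sec

theorem RealP.quot {p : ℕ} [hp : Fact p.Prime] (hp2 : p ≠ 2) {X : Type*} [Group X] [Finite X]
    (N : Subgroup X) [hN : N.Normal] (h : RealP p (X ⧸ N)) : RealP p X := by
  obtain ⟨x', g', ⟨k, hk⟩, hx', hg'⟩ := h
  obtain ⟨g, rfl⟩ := QuotientGroup.mk'_surjective N g'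
  set f := QuotientGroup.mk' N with hf
  have hfs : Function.Surjective f := QuotientGroup.mk'_surjective N
  have hker : ∀ y, f y = 1 ↔ y ∈ N := fun y => QuotientGroup.eq_one_iff y
  set Y : Subgroup X := (Subgroup.zpowers x').comap f with hY
  have hinv : ∀ y ∈ Subgroup.zpowers x', f g * y * (f g)⁻¹ = y⁻¹ := by
    rintro _ ⟨i, rfl⟩
    show f g * x' ^ i * (f g)⁻¹ = (x' ^ i)⁻¹
    have : f g * x' ^ i * (f g)⁻¹ = (f g * x' * (f g)⁻¹) ^ i := by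
      have := map_zpow (MulAut.conj (f g)) x' i
      simpa using this
    rw [this, hg', inv_zpow]
  have hgY : g ∈ Subgroup.normalizer (Y : Set X) := by
    apply mem_norm_of_le
    rw [cj_le_iff]
    intro y hy
    show f (g * y * g⁻¹) ∈ Subgroup.zpowers x'
    rw [map_mul, map_mul, map_inv, hinv _ hy]
    exact inv_mem hy
  obtain ⟨R, hR⟩ := IsSyl.exists (p := p) Y
  obtain ⟨n, hn, hng⟩ := hR.frattini hgY
  have hx'p : IsPGroup p (Subgroup.zpowers x') := by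
    rintro ⟨_, i, rfl⟩
    refine ⟨k, Subtype.ext ?_⟩
    show (x' ^ i) ^ p ^ k = 1
    rw [← zpow_natCast, ← zpow_mul, mul_comm, zpow_mul, zpow_natCast, hk, one_zpow]
  have hRm : R.map f = Subgroup.zpowers x' := by
    have h1 := hR.map f
    have h2 : Y.map f = Subgroup.zpowers x' := Subgroup.map_comap_eq_self_of_surjective hfs _
    rw [h2] at h1
    exact (h1.eq_of_le h1.1 le_rfl hx'p).symm
  obtain ⟨w, hw, hwx⟩ : ∃ w ∈ R, f w = x' := by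
    have : x' ∈ R.map f := by rw [hRm]; exact Subgroup.mem_zpowers x'
    exact this
  have hfn : f n ∈ Subgroup.zpowers x' := hn
  have hcomm : ∀ y ∈ Subgroup.zpowers x', f n * y * (f n)⁻¹ = y := by
    intro y hy
    have : f n * y = y * f n := by
      obtain ⟨i, hi⟩ := hfn
      obtain ⟨j, hj⟩ := hy
      simp only at hi hj
      rw [← hi, ← hj]
      exact (Commute.refl x').zpow_zpow i j
    rw [this]; group
  obtain ⟨x, hx, z, hz, hx1, hzx⟩ := real_of_section (P₁ := R ⊓ N) (P₂ := R) (z := n * g) hp2 hR.2.1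
    inf_le_left (fun r hr => norm_inf (Subgroup.le_normalizer hr) (by
      rw [Subgroup.normalizer_eq_top]; trivial))
    (norm_inf hng (by rw [Subgroup.normalizer_eq_top]; trivial)) hng (by
      intro r hr
      have hfr : f r ∈ Subgroup.zpowers x' := by rw [← hRm]; exact ⟨r, hr, rfl⟩
      refine ⟨R.mul_mem ((Subgroup.mem_normalizer_iff.1 hng r).1 hr) hr, ?_⟩
      apply (hker _).1
      have e : f (n * g * r * (n * g)⁻¹ * r) = f n * (f g * f r * (f g)⁻¹) * (f n)⁻¹ * f r := by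
        simp only [map_mul, map_inv]; group
      rw [e, hinv _ hfr, hcomm _ (inv_mem hfr), inv_mul_cancel]) (w := w) hw (by
      intro h1
      apply hx'
      rw [← hwx, hker]
      exact h1.2)
  obtain ⟨j, hj⟩ := hR.2.1 ⟨x, hx⟩
  exact ⟨x, z, ⟨j, congrArg Subtype.val hj⟩, hx1, hzx⟩

theorem RealP.ctl {p : ℕ} [hp : Fact p.Prime] {X : Type*} [Group X] [Finite X] (S : Sylow p X)
    (H : Subgroup X) (hSH : (S : Subgroup X) ≤ H)
    (hctl : ∀ A ≤ (S : Subgroup X), ∀ g, cj g A ≤ (S : Subgroup X) → ∃ h ∈ H, ∀ a ∈ A,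
      g * a * g⁻¹ = h * a * h⁻¹) (h : RealP p X) : RealP p ↥H := by
  obtain ⟨x, g, ⟨k, hk⟩, hx, hg⟩ := h
  have hxp : IsPGroup p (Subgroup.zpowers x) := by
    rintro ⟨_, i, rfl⟩
    refine ⟨k, Subtype.ext ?_⟩
    show (x ^ i) ^ p ^ k = 1
    rw [← zpow_natCast, ← zpow_mul, mul_comm, zpow_mul, zpow_natCast, hk, one_zpow]
  obtain ⟨c, -, hc⟩ := (isSyl_top S).conj_le (R := Subgroup.zpowers x) le_top hxp
  have hcx : c * x * c⁻¹ ∈ (S : Subgroup X) := hc (conj_mem_cj (Subgroup.mem_zpowers x))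
  have hinv : (c * g * c⁻¹) * (c * x * c⁻¹) * (c * g * c⁻¹)⁻¹ = (c * x * c⁻¹)⁻¹ := by
    calc (c * g * c⁻¹) * (c * x * c⁻¹) * (c * g * c⁻¹)⁻¹ = c * (g * x * g⁻¹) * c⁻¹ := by group
      _ = _ := by rw [hg]; group
  obtain ⟨h, hh, h1⟩ := hctl (Subgroup.zpowers (c * x * c⁻¹)) ((Subgroup.zpowers_le).2 hcx)
    (c * g * c⁻¹) (by
      rw [cj_le_iff]
      rintro _ ⟨i, rfl⟩
      show (c * g * c⁻¹) * (c * x * c⁻¹) ^ i * (c * g * c⁻¹)⁻¹ ∈ _
      have : (c * g * c⁻¹) * (c * x * c⁻¹) ^ i * (c * g * c⁻¹)⁻¹ =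
          ((c * g * c⁻¹) * (c * x * c⁻¹) * (c * g * c⁻¹)⁻¹) ^ i :=
        map_zpow (MulAut.conj (c * g * c⁻¹)) (c * x * c⁻¹) i
      rw [this, hinv]
      exact zpow_mem (inv_mem hcx) _)
  have h2 := h1 _ (Subgroup.mem_zpowers _)
  rw [hinv] at h2
  refine ⟨⟨c * x * c⁻¹, hSH hcx⟩, ⟨h, hh⟩, ⟨k, Subtype.ext ?_⟩, ?_, Subtype.ext h2.symm⟩
  · show (c * x * c⁻¹) ^ p ^ k = 1
    rw [conj_pow, hk]; group
  · intro h3
    apply hx
    have h4 : c * x * c⁻¹ = 1 := congrArg Subtype.val h3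
    rw [mul_inv_eq_one] at h4
    exact mul_eq_left.1 h4

end Cfsg.Agent.QdInv
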