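import Cfsg.Agent.QdInv.QuadStruct
import Cfsg.Agent.H11.QdRed
import Cfsg.Agent.QdInv.Real
import Cfsg.Agent.BG3.Section
import Cfsg.Agent.H32.StabQuot2
import Cfsg.Agent.Solv.Frattini
/-!
A pair of quadratic elements generating a non-`p`-group: irreducible section and the element `-1`.
-/
set_option autoImplicit false
set_option linter.all false

namespace Cfsg.Agent.QdInv

open Cfsg Cfsg.Agent.H33
open scoped commutatorElement

universe u

section Fac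

variable {G : Type*} [Group G] [Finite G] {p : ℕ} [hp : Fact p.Prime]

theorem exists_factor {P L : Subgroup G} (hP : IsPGroup p P) (hLP : L ≤ Subgroup.normalizer (P : Set G))
    {g : G} (hg : g ∈ L) (hgo : (orderOf g).Coprime p) (hgc : g ∉ Subgroup.centralizer (P : Set G)) :
    ∃ P₁ P₂ : Subgroup G, P₁ < P₂ ∧ P₂ ≤ P ∧ L ≤ Subgroup.normalizer (P₁ : Set G) ∧
      L ≤ Subgroup.normalizer (P₂ : Set G) ∧ P₂ ≤ Subgroup.normalizer (P₁ : Set G) ∧
      (∀ x ∈ P₂, x ^ p ∈ P₁) ∧ (∀ x ∈ P₂, ∀ y ∈ P₂, x * y * x⁻¹ * y⁻¹ ∈ P₁) ∧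
      (∃ x ∈ P₂, g * x * g⁻¹ * x⁻¹ ∉ P₁) ∧
      ∀ U, P₁ ≤ U → U ≤ P₂ → L ≤ Subgroup.normalizer (U : Set G) → U = P₁ ∨ U = P₂ := by
  classical
  -- `P₂` minimal
  obtain ⟨P₂, ⟨h1, h2, h3⟩, hmin⟩ : ∃ P₂ : Subgroup G, (P₂ ≤ P ∧ L ≤ Subgroup.normalizer (P₂ : Set G) ∧
      g ∉ Subgroup.centralizer (P₂ : Set G)) ∧ ∀ U : Subgroup G, U < P₂ →
      L ≤ Subgroup.normalizer (U : Set G) → g ∈ Subgroup.centralizer (U : Set G) := by
    obtain ⟨P₂, h1, h2⟩ := (wellFounded_lt (α := Subgroup G)).has_min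
      {U : Subgroup G | U ≤ P ∧ L ≤ Subgroup.normalizer (U : Set G) ∧
        g ∉ Subgroup.centralizer (U : Set G)} ⟨P, le_rfl, hLP, hgc⟩
    refine ⟨P₂, h1, fun U hU hLU => ?_⟩
    by_contra hcon
    exact h2 U ⟨hU.le.trans h1.1, hLU, hcon⟩ hU
  have hP₂p : IsPGroup p P₂ := isPGroup_sub hP h1
  have hne : (⊥ : Subgroup G) < P₂ := by
    rw [bot_lt_iff_ne_bot]
    rintro rfl
    apply h3
    apply Subgroup.mem_centralizer_iff.2
    intro x hx
    rw [(Subgroup.mem_bot.1 hx)]; simp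
  obtain ⟨Φ, hΦ⟩ : ∃ Φ : Subgroup G, Φ = (frattini P₂).map P₂.subtype := ⟨_, rfl⟩
  have hΦlt : Φ < P₂ := by
    have := Cfsg.Agent.H32.StabQuot.frattini_sup_lt hne (by
      intro x _
      apply mem_norm_of_le
      rw [cj_bot])
    rwa [bot_sup_eq, ← hΦ] at this
  have hLΦ : ∀ y ∈ Subgroup.normalizer (P₂ : Set G), y ∈ Subgroup.normalizer (Φ : Set G) := by
    intro y hy
    rw [hΦ]
    exact Cfsg.Agent.H32.StabQuot.frattini_map_normalizer hy
  -- `P₁` maximal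
  obtain ⟨P₁, ⟨h4, h5, h6⟩, hmax⟩ : ∃ P₁ : Subgroup G, (Φ ≤ P₁ ∧ P₁ < P₂ ∧
      L ≤ Subgroup.normalizer (P₁ : Set G)) ∧ ∀ U : Subgroup G, P₁ < U → U < P₂ →
      ¬ L ≤ Subgroup.normalizer (U : Set G) := by
    obtain ⟨P₁, h4, h5⟩ := (wellFounded_gt (α := Subgroup G)).has_min
      {U : Subgroup G | Φ ≤ U ∧ U < P₂ ∧ L ≤ Subgroup.normalizer (U : Set G)}
      ⟨Φ, le_rfl, hΦlt, fun y hy => hLΦ y (h2 hy)⟩
    exact ⟨P₁, h4, fun U hU hUP hLU => h5 U ⟨h4.1.trans hU.le, hUP, hLU⟩ hU⟩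
  have hcomm : ∀ x ∈ P₂, ∀ y ∈ P₂, x * y * x⁻¹ * y⁻¹ ∈ P₁ := by
    intro x hx y hy
    apply h4
    rw [hΦ]
    have h7 : ⁅(⟨x, hx⟩ : P₂), (⟨y, hy⟩ : P₂)⁆ ∈ frattini P₂ :=
      Cfsg.Agent.Solv.commutator_le_frattini_of_pGroup hP₂p
        (Subgroup.commutator_mem_commutator (Subgroup.mem_top _) (Subgroup.mem_top _))
    exact ⟨_, h7, rfl⟩
  have hnorm : P₂ ≤ Subgroup.normalizer (P₁ : Set G) := by
    intro x hx
    apply mem_norm_of_le
    rw [cj_le_iff]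
    intro y hy
    have := P₁.mul_mem (hcomm x hx y (h5.le hy)) hy
    have e : x * y * x⁻¹ * y⁻¹ * y = x * y * x⁻¹ := by group
    rwa [e] at this
  refine ⟨P₁, P₂, h5, h1, h6, h2, hnorm, ?_, hcomm, ?_, ?_⟩
  · intro x hx
    apply h4
    rw [hΦ]
    exact ⟨_, Cfsg.Agent.Solv.pow_mem_frattini_of_pGroup hP₂p ⟨x, hx⟩, rfl⟩
  · by_contra hcon
    push Not at hcon
    apply h3
    have h7 := hmin P₁ h5 h6
    have hg1 : g ∈ Subgroup.normalizer (P₁ : Set G) := h6 hg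
    have hg2 : g ∈ Subgroup.normalizer (P₂ : Set G) := h2 hg
    have hCe : Ce P₁ P₂ g := hcon
    have hcop : (Nat.card (Subgroup.zpowers g)).Coprime (Nat.card P₂) := by
      rw [Nat.card_zpowers]
      obtain ⟨n, hn⟩ := hP₂p.exists_card_eq
      rw [hn]
      exact Nat.Coprime.pow_right _ hgo
    apply Subgroup.mem_centralizer_iff.2
    intro x hx
    obtain ⟨c, hc, hcx⟩ := Cfsg.Agent.Cop.fixed_points_quotient (Subgroup.zpowers g) P₂
      ((Subgroup.zpowers_le).2 hg2) hcop (Or.inl (by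
        apply Group.isSolvable_of_comm
        rintro ⟨_, i, rfl⟩ ⟨_, j, rfl⟩
        exact Subtype.ext ((Commute.refl g).zpow_zpow i j).eq)) P₁ h5.le hnorm
      ((Subgroup.zpowers_le).2 hg1) x hx (by
        intro a ha
        rw [← mem_powers_iff_mem_zpowers] at ha
        obtain ⟨j, rfl⟩ := ha
        exact hCe.pow hg1 j x hx)
    have h8 : Commute g c := Subgroup.mem_centralizer_iff.1 hc.2 g (Subgroup.mem_zpowers g)
    have h9 : Commute g (x⁻¹ * c) := (Subgroup.mem_centralizer_iff.1 h7 _ hcx).symm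
    have h10 : x = c * (x⁻¹ * c)⁻¹ := by group
    have h11 : Commute g (c * (x⁻¹ * c)⁻¹) := h8.mul_right h9.inv_right
    rw [← h10] at h11
    exact h11.eq.symm
  · intro U hU1 hU2 hLU
    rcases hU1.lt_or_eq with h7 | h7
    · rcases hU2.lt_or_eq with h8 | h8
      · exact absurd hLU (hmax U h7 h8)
      · exact Or.inr h8
    · exact Or.inl h7.symm

end Fac

section Str

variable {G : Type u} [Group G] [Finite G] {p : ℕ} [hp : Fact p.Prime]

theorem exists_struct (hp2 : p ≠ 2) {P₁ P₂ : Subgroup G} {a b g : G} (hlt : P₁ < P₂)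
    (hL1 : Subgroup.closure {a, b} ≤ Subgroup.normalizer (P₁ : Set G))
    (hL2 : Subgroup.closure {a, b} ≤ Subgroup.normalizer (P₂ : Set G))
    (hn : P₂ ≤ Subgroup.normalizer (P₁ : Set G)) (hpow : ∀ x ∈ P₂, x ^ p ∈ P₁)
    (hcomm : ∀ x ∈ P₂, ∀ y ∈ P₂, x * y * x⁻¹ * y⁻¹ ∈ P₁) (hg : g ∈ Subgroup.closure {a, b})
    (hgx : ∃ x ∈ P₂, g * x * g⁻¹ * x⁻¹ ∉ P₁)
    (hirr : ∀ U, P₁ ≤ U → U ≤ P₂ → Subgroup.closure {a, b} ≤ Subgroup.normalizer (U : Set G) →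
      U = P₁ ∨ U = P₂) (hqa : H11.Quad a P₂) (hqb : H11.Quad b P₂) :
    ∃ (F : Type) (_ : Field F) (_ : Finite F) (_ : CharP F p) (γ : F) (π : G → (Fin 2 → F)),
      γ ≠ 0 ∧ (∀ x ∈ P₂, ∀ y ∈ P₂, π (x * y) = π x + π y) ∧ (∀ v, ∃ x ∈ P₂, π x = v) ∧
      (∀ x ∈ P₂, π x = 0 ↔ x ∈ P₁) ∧
      (∀ x ∈ P₂, π (a * x * a⁻¹) = (H11.slU γ).1.mulVec (π x)) ∧
      (∀ x ∈ P₂, π (b * x * b⁻¹) = (H11.slL (1 : F)).1.mulVec (π x)) ∧
      ∀ M ∈ Subgroup.closure {H11.slU γ, H11.slL (1 : F)}, ∃ h ∈ Subgroup.closure {a, b},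
        ∀ x ∈ P₂, π (h * x * h⁻¹) = M.1.mulVec (π x) := by
  classical
  obtain ⟨V, i1, i2, ⟨S⟩⟩ := Cfsg.Agent.BG3.exists_secMod (ℓ := p) (M := P₂) (M1 := P₁)
    (Y := Subgroup.closure {a, b}) hn hL2 hL1 hpow hcomm
  have haL : a ∈ Subgroup.closure ({a, b} : Set G) := Subgroup.subset_closure (by simp)
  have hbL : b ∈ Subgroup.closure ({a, b} : Set G) := Subgroup.subset_closure (by simp)
  have i3 : Finite V := by
    refine Finite.of_surjective (fun x : P₂ => (S.π x).toAdd) ?_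
    intro v
    exact S.exists_rep v
  have i4 : Nontrivial V := by
    obtain ⟨x, hx, hx'⟩ := SetLike.exists_of_lt hlt
    refine ⟨(S.π ⟨x, hx⟩).toAdd, 0, ?_⟩
    intro h
    apply hx'
    exact (S.ker ⟨x, hx⟩).1 h
  obtain ⟨a', ha'⟩ : ∃ a' : ↥(Subgroup.closure ({a, b} : Set G)), (a' : G) = a := ⟨⟨a, haL⟩, rfl⟩
  obtain ⟨b', hb'⟩ : ∃ b' : ↥(Subgroup.closure ({a, b} : Set G)), (b' : G) = b := ⟨⟨b, hbL⟩, rfl⟩
  have hπmul : ∀ x y : P₂, (S.π (x * y)).toAdd = (S.π x).toAdd + (S.π y).toAdd := by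
    intro x y; rw [map_mul]; rfl
  have hπinv : ∀ x : P₂, (S.π x⁻¹).toAdd = - (S.π x).toAdd := by
    intro x; rw [map_inv]; rfl
  have hquad : ∀ e : ↥(Subgroup.closure ({a, b} : Set G)), H11.Quad (e : G) P₂ →
      (S.ρ e - 1) * (S.ρ e - 1) = 0 := by
    intro e he
    apply LinearMap.ext
    intro v
    obtain ⟨x, rfl⟩ := S.exists_rep v
    have key : ∀ y : P₂, (S.ρ e - 1) (S.π y).toAdd =
        (S.π (Cfsg.Agent.BG3.cjHom hL2 e y * y⁻¹)).toAdd := by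
      intro y
      rw [hπmul, hπinv, S.equiv, LinearMap.sub_apply, Module.End.one_apply, sub_eq_add_neg]
    rw [Module.End.mul_apply, key, key, LinearMap.zero_apply]
    have h1 := he x x.2
    have h2 : Cfsg.Agent.BG3.cjHom hL2 e (Cfsg.Agent.BG3.cjHom hL2 e x * x⁻¹) *
        (Cfsg.Agent.BG3.cjHom hL2 e x * x⁻¹)⁻¹ = 1 := by
      apply Subtype.ext
      show (e : G) * ((e : G) * x * (e : G)⁻¹ * (x : G)⁻¹) * (e : G)⁻¹ *
        ((e : G) * x * (e : G)⁻¹ * (x : G)⁻¹)⁻¹ = 1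
      rw [h1.eq, mul_inv_cancel_right, mul_inv_cancel]
    rw [h2, map_one]
    rfl
  -- invariant submodules
  have hsubm : ∀ U : Submodule (ZMod p) V, (∀ u ∈ U, S.ρ a' u ∈ U) → (∀ u ∈ U, S.ρ b' u ∈ U) →
      U = ⊥ ∨ U = ⊤ := by
    intro U hUa hUb
    let U' : Subgroup G :=
      { carrier := {g | ∃ h : g ∈ P₂, (S.π ⟨g, h⟩).toAdd ∈ U}
        mul_mem' := by
          rintro g g' ⟨h, hg⟩ ⟨h', hg'⟩
          refine ⟨mul_mem h h', ?_⟩
          have := add_mem hg hg'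
          rw [← hπmul] at this
          exact this
        one_mem' := ⟨one_mem _, by
          have h1 : S.π (1 : P₂) = 1 := map_one _
          show (S.π (1 : P₂)).toAdd ∈ U
          rw [h1]; exact zero_mem U⟩
        inv_mem' := by
          rintro g ⟨h, hg⟩
          refine ⟨inv_mem h, ?_⟩
          have := neg_mem hg
          rw [← hπinv] at this
          exact this }
    have hmem : ∀ x : P₂, (x : G) ∈ U' ↔ (S.π x).toAdd ∈ U := by
      intro x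
      constructor
      · rintro ⟨h, hx⟩; exact hx
      · intro hx; exact ⟨x.2, hx⟩
    have hU2 : U' ≤ P₂ := by rintro g ⟨h, -⟩; exact h
    have hU1 : P₁ ≤ U' := by
      intro x hx
      refine ⟨hlt.le hx, ?_⟩
      have h1 : S.π ⟨x, hlt.le hx⟩ = 1 := (S.ker _).2 hx
      rw [h1]; exact zero_mem U
    have hnn : ∀ e : ↥(Subgroup.closure ({a, b} : Set G)), (∀ u ∈ U, S.ρ e u ∈ U) →
        (e : G) ∈ Subgroup.normalizer (U' : Set G) := by
      intro e he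
      apply mem_norm_of_le
      rw [cj_le_iff]
      rintro x ⟨h, hx⟩
      have h1 := he _ hx
      rw [← S.equiv] at h1
      exact ⟨_, h1⟩
    have hLU : Subgroup.closure {a, b} ≤ Subgroup.normalizer (U' : Set G) := by
      rw [Subgroup.closure_le]
      rintro x (rfl | hx)
      · have := hnn a' hUa; rwa [ha'] at this
      · rw [Set.mem_singleton_iff.1 hx]
        have := hnn b' hUb; rwa [hb'] at this
    rcases hirr U' hU1 hU2 hLU with h | h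
    · left
      rw [eq_bot_iff]
      intro v hv
      obtain ⟨x, rfl⟩ := S.exists_rep v
      have h1 := (hmem x).2 hv
      rw [h] at h1
      have h2 := (S.ker x).2 h1
      rw [Submodule.mem_bot, h2]; rfl
    · right
      rw [eq_top_iff]
      intro v _
      obtain ⟨x, rfl⟩ := S.exists_rep v
      rw [← hmem, h]
      exact x.2
  have hnt : S.ρ a' ≠ 1 ∨ S.ρ b' ≠ 1 := by
    by_contra hcon
    push Not at hcon
    obtain ⟨x, hx, hx'⟩ := hgx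
    apply hx'
    have h1 : ∀ e : G, ∀ he : e ∈ Subgroup.closure ({a, b} : Set G), S.ρ ⟨e, he⟩ = 1 := by
      intro e he
      induction he using Subgroup.closure_induction with
      | mem y hy =>
        rcases hy with rfl | hy
        · have : (⟨y, haL⟩ : ↥(Subgroup.closure ({y, b} : Set G))) = a' := Subtype.ext ha'.symm
          rw [← hcon.1, ← this]
        · rw [Set.mem_singleton_iff] at hy
          subst hy
          have : (⟨y, hbL⟩ : ↥(Subgroup.closure ({a, y} : Set G))) = b' := Subtype.ext hb'.symm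
          rw [← hcon.2, ← this]
      | one => exact map_one S.ρ
      | mul y z hy hz h2 h3 =>
        have : (⟨y * z, mul_mem hy hz⟩ : ↥(Subgroup.closure ({a, b} : Set G))) = ⟨y, hy⟩ * ⟨z, hz⟩ := rfl
        rw [this, map_mul, h2, h3, mul_one]
      | inv y hy h2 =>
        have h3 : (⟨y⁻¹, inv_mem hy⟩ : ↥(Subgroup.closure ({a, b} : Set G))) * ⟨y, hy⟩ = 1 := by
          apply Subtype.ext
          exact inv_mul_cancel y
        have h4 := congrArg S.ρ h3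
        rw [map_mul, h2, mul_one, map_one] at h4
        exact h4
    have h2 := h1 g hg
    have h3 := S.equiv ⟨g, hg⟩ ⟨x, hx⟩
    rw [h2, Module.End.one_apply] at h3
    exact (S.eq_iff (Cfsg.Agent.BG3.cjHom hL2 ⟨g, hg⟩ ⟨x, hx⟩) ⟨x, hx⟩).1 h3
  obtain ⟨F, j1, j2, j3, γ, e, hγ, hbij, hadd, hA, hB, hR⟩ := quad_struct hp2 S.ρ a' b'
    (hquad a' (by rw [ha']; exact hqa)) (hquad b' (by rw [hb']; exact hqb)) hsubm hnt
  let e' := Equiv.ofBijective e hbij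
  have he' : ∀ v, e (e'.symm v) = v := fun v => e'.apply_symm_apply v
  let π : G → (Fin 2 → F) := fun x => if h : x ∈ P₂ then e'.symm (S.π ⟨x, h⟩).toAdd else 0
  have hπ : ∀ x : P₂, π x = e'.symm (S.π x).toAdd := fun x => dif_pos x.2
  have hconj : ∀ (c : ↥(Subgroup.closure ({a, b} : Set G))) (M : Matrix.SpecialLinearGroup (Fin 2) F),
      (∀ v, S.ρ c (e v) = e (M.1.mulVec v)) → ∀ x ∈ P₂, π ((c : G) * x * (c : G)⁻¹) = M.1.mulVec (π x) := by
    intro c M hcM x hx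
    have h1 := hπ (Cfsg.Agent.BG3.cjHom hL2 c ⟨x, hx⟩)
    have h2 : ((Cfsg.Agent.BG3.cjHom hL2 c ⟨x, hx⟩ : P₂) : G) = (c : G) * x * (c : G)⁻¹ := rfl
    rw [h2] at h1
    have h3 := hπ ⟨x, hx⟩
    change π x = _ at h3
    rw [h1, S.equiv]
    apply hbij.1
    rw [he', ← hcM, h3, he']
  refine ⟨F, j1, j2, j3, γ, π, hγ, ?_, ?_, ?_, ?_, ?_, ?_⟩
  · intro x hx y hy
    have h1 := hπ (⟨x, hx⟩ * ⟨y, hy⟩)
    have h2 := hπ ⟨x, hx⟩
    have h3 := hπ ⟨y, hy⟩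
    change π (x * y) = _ at h1
    change π x = _ at h2
    change π y = _ at h3
    apply hbij.1
    rw [hadd, h1, h2, h3, he', he', he', hπmul]
  · intro v
    obtain ⟨x, hx⟩ := S.exists_rep (e v)
    refine ⟨x, x.2, ?_⟩
    rw [hπ, hx]
    exact e'.symm_apply_apply v
  · intro x hx
    have h2 := hπ ⟨x, hx⟩
    change π x = _ at h2
    have he0 : e 0 = 0 := by
      have := hadd 0 0
      rw [add_zero] at this
      exact (add_eq_left.1 this.symm)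
    constructor
    · intro h
      rw [h] at h2
      have h3 : e 0 = (S.π ⟨x, hx⟩).toAdd := by rw [h2, he']
      rw [he0] at h3
      exact (S.ker ⟨x, hx⟩).1 h3.symm
    · intro h
      have h3 : (S.π ⟨x, hx⟩) = 1 := (S.ker ⟨x, hx⟩).2 h
      rw [h2, h3]
      apply hbij.1
      rw [he', he0]
      rfl
  · intro x hx
    have := hconj a' _ hA x hx
    rwa [ha'] at this
  · intro x hx
    have := hconj b' _ hB x hx
    rwa [hb'] at this
  · intro M hM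
    obtain ⟨c, hc, h1⟩ := hR M hM
    exact ⟨c, c.2, hconj c M h1⟩

/-- Moving an element normalizing `⟨a⟩` modulo the kernel into the normalizer of a `p`-subgroup. -/
theorem exists_norm_T {P₁ P₂ : Subgroup G} {a b z : G} (hza : z ∈ Subgroup.closure {a, b})
    (hL1 : Subgroup.closure {a, b} ≤ Subgroup.normalizer (P₁ : Set G))
    (hL2 : Subgroup.closure {a, b} ≤ Subgroup.normalizer (P₂ : Set G))
    (hap : ∃ k, a ^ p ^ k = 1) (j : ℕ)
    (hj : ∀ x ∈ P₂, (z * a * z⁻¹) * x * (z * a * z⁻¹)⁻¹ * (a ^ j * x * (a ^ j)⁻¹)⁻¹ ∈ P₁) :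
    ∃ T' : Subgroup G, IsPGroup p T' ∧ a ∈ T' ∧ T' ≤ Subgroup.closure {a, b} ∧
      ∃ z' ∈ Subgroup.closure {a, b}, z' ∈ Subgroup.normalizer (T' : Set G) ∧
        ∀ x ∈ P₂, z' * x * z'⁻¹ * (z * x * z⁻¹)⁻¹ ∈ P₁ := by
  obtain ⟨L, hL⟩ : ∃ L : Subgroup G, L = Subgroup.closure {a, b} := ⟨_, rfl⟩
  have haL : a ∈ L := by rw [hL]; exact Subgroup.subset_closure (by simp)
  rw [← hL] at hL1 hL2 hza ⊢
  -- the kernel of the action on the section
  let C : Subgroup G :=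
    { carrier := {c | c ∈ L ∧ Ce P₁ P₂ c}
      one_mem' := ⟨one_mem _, Ce.one⟩
      mul_mem' := by
        rintro c d ⟨hc1, hc2⟩ ⟨hd1, hd2⟩
        exact ⟨mul_mem hc1 hd1, hc2.mul_Ce hd2 (hL1 hc1)⟩
      inv_mem' := by
        rintro c ⟨hc1, hc2⟩
        refine ⟨inv_mem hc1, fun x hx => ?_⟩
        have h1 : c⁻¹ * x * c ∈ P₂ := by
          have := (Subgroup.mem_normalizer_iff.1 (hL2 (inv_mem hc1)) x).1 hx
          simpa using this
        have h2 := P₁.inv_mem (hc2 _ h1)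
        have e : (c * (c⁻¹ * x * c) * c⁻¹ * (c⁻¹ * x * c)⁻¹)⁻¹ = c⁻¹ * x * c⁻¹⁻¹ * x⁻¹ := by group
        rwa [e] at h2 }
  have hmemC : ∀ c, c ∈ C ↔ c ∈ L ∧ Ce P₁ P₂ c := fun c => Iff.rfl
  have hCn : L ≤ Subgroup.normalizer (C : Set G) := by
    intro y hy
    apply mem_norm_of_le
    rw [cj_le_iff]
    rintro c ⟨hc1, hc2⟩
    refine ⟨mul_mem (mul_mem hy hc1) (inv_mem hy), fun x hx => ?_⟩
    have h1 : y⁻¹ * x * y ∈ P₂ := by
      have := (Subgroup.mem_normalizer_iff.1 (hL2 (inv_mem hy)) x).1 hx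
      simpa using this
    have h2 := (Subgroup.mem_normalizer_iff.1 (hL1 hy) _).1 (hc2 _ h1)
    have e : y * (c * (y⁻¹ * x * y) * c⁻¹ * (y⁻¹ * x * y)⁻¹) * y⁻¹ =
      y * c * y⁻¹ * x * (y * c * y⁻¹)⁻¹ * x⁻¹ := by group
    rwa [e] at h2
  obtain ⟨E, hE⟩ : ∃ E : Subgroup G, E = C ⊔ Subgroup.zpowers a := ⟨_, rfl⟩
  have hCL : C ≤ L := fun c hc => hc.1
  have hEL : E ≤ L := by rw [hE]; exact sup_le hCL ((Subgroup.zpowers_le).2 haL)
  have hzac : z * a * z⁻¹ * (a ^ j)⁻¹ ∈ C := by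
    refine ⟨mul_mem (mul_mem (mul_mem hza haL) (inv_mem hza)) (inv_mem (pow_mem haL j)), ?_⟩
    intro x hx
    have h1 : (a ^ j)⁻¹ * x * a ^ j ∈ P₂ := by
      have := (Subgroup.mem_normalizer_iff.1 (hL2 (inv_mem (pow_mem haL j))) x).1 hx
      simpa using this
    have h2 := hj _ h1
    have e : z * a * z⁻¹ * ((a ^ j)⁻¹ * x * a ^ j) * (z * a * z⁻¹)⁻¹ *
        (a ^ j * ((a ^ j)⁻¹ * x * a ^ j) * (a ^ j)⁻¹)⁻¹ =
        z * a * z⁻¹ * (a ^ j)⁻¹ * x * (z * a * z⁻¹ * (a ^ j)⁻¹)⁻¹ * x⁻¹ := by group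
    rwa [e] at h2
  have hzE : z ∈ Subgroup.normalizer (E : Set G) := by
    apply mem_norm_of_le
    rw [hE, cj_sup, mem_norm_iff.1 (hCn hza)]
    refine sup_le le_sup_left ?_
    rw [cj_le_iff]
    rintro _ ⟨i, rfl⟩
    show z * a ^ i * z⁻¹ ∈ _
    have h1 : z * a ^ i * z⁻¹ = (z * a * z⁻¹) ^ i := map_zpow (MulAut.conj z) a i
    rw [h1]
    apply zpow_mem
    have h2 : z * a * z⁻¹ = (z * a * z⁻¹ * (a ^ j)⁻¹) * a ^ j := by group
    rw [h2]
    exact mul_mem (Subgroup.mem_sup_left hzac)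
      (Subgroup.mem_sup_right (Subgroup.npow_mem_zpowers a j))
  obtain ⟨k, hk⟩ := hap
  have hapg : IsPGroup p (Subgroup.zpowers a) := by
    rintro ⟨_, i, rfl⟩
    refine ⟨k, Subtype.ext ?_⟩
    show (a ^ i) ^ p ^ k = 1
    rw [← zpow_natCast, ← zpow_mul, mul_comm, zpow_mul, zpow_natCast, hk, one_zpow]
  obtain ⟨T', haT, hT'⟩ := IsSyl.exists_of_le (p := p) (H := E) (R := Subgroup.zpowers a)
    (by rw [hE]; exact le_sup_right) hapg
  have haT' : a ∈ T' := haT (Subgroup.mem_zpowers a)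
  obtain ⟨n, hn, hnz⟩ := hT'.frattini hzE
  rw [hE] at hn
  obtain ⟨c, hc, t, ⟨i, rfl⟩, rfl⟩ := (mem_sup_left_norm (by
    rw [Subgroup.zpowers_le]; exact hCn haL)).1 hn
  refine ⟨T', hT'.2.1, haT', hT'.1.trans hEL, (a ^ i)⁻¹ * (c * a ^ i * z), ?_, ?_, ?_⟩
  · exact mul_mem (inv_mem (zpow_mem haL i)) (mul_mem (mul_mem hc.1 (zpow_mem haL i)) hza)
  · exact mul_mem (Subgroup.le_normalizer (inv_mem (zpow_mem haT' i))) hnz
  · intro x hx
    have h1 : (a ^ i)⁻¹ * c * a ^ i ∈ C := by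
      have := (Subgroup.mem_normalizer_iff.1 (hCn (inv_mem (zpow_mem haL i))) c).1 hc
      simpa using this
    have h2 : z * x * z⁻¹ ∈ P₂ := (Subgroup.mem_normalizer_iff.1 (hL2 hza) x).1 hx
    have h3 := h1.2 _ h2
    have e : (a ^ i)⁻¹ * c * a ^ i * (z * x * z⁻¹) * ((a ^ i)⁻¹ * c * a ^ i)⁻¹ * (z * x * z⁻¹)⁻¹ =
      (a ^ i)⁻¹ * (c * a ^ i * z) * x * ((a ^ i)⁻¹ * (c * a ^ i * z))⁻¹ * (z * x * z⁻¹)⁻¹ := by group
    rwa [e] at h3

end Str

end Cfsg.Agent.QdInv
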