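import Cfsg.Agent.H11.QdLin
import Cfsg.Agent.H81.GL2Sylow
/-!
Two quadratic operators acting irreducibly: full description (adapted from `H11.exists_opposite`).
-/
set_option autoImplicit false
set_option linter.all false

namespace Cfsg.Agent.QdInv

open Polynomial Cfsg.Agent.H11 Matrix

section
variable {p : ℕ} [hp : Fact p.Prime] {V : Type*} [AddCommGroup V] [Module (ZMod p) V] [Finite V]
  [Nontrivial V]

theorem quad_struct {E : Type*} [Group E] (hp2 : p ≠ 2) (ρ : E →* Module.End (ZMod p) V)
    (a b : E) (ha : (ρ a - 1) * (ρ a - 1) = 0) (hb : (ρ b - 1) * (ρ b - 1) = 0)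
    (hirr : ∀ U : Submodule (ZMod p) V, (∀ u ∈ U, ρ a u ∈ U) → (∀ u ∈ U, ρ b u ∈ U) →
      U = ⊥ ∨ U = ⊤) (hnt : ρ a ≠ 1 ∨ ρ b ≠ 1) :
    ∃ (F : Type) (_ : Field F) (_ : Finite F) (_ : CharP F p) (γ : F) (e : (Fin 2 → F) → V),
      γ ≠ 0 ∧ Function.Bijective e ∧ (∀ s t, e (s + t) = e s + e t) ∧
      (∀ x, ρ a (e x) = e ((slU γ).1.mulVec x)) ∧ (∀ x, ρ b (e x) = e ((slL (1 : F)).1.mulVec x)) ∧
      ∀ M ∈ Subgroup.closure {slU γ, slL (1 : F)}, ∃ g ∈ Subgroup.closure {a, b},
        ∀ x, ρ g (e x) = e (M.1.mulVec x) := by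
  classical
  set α := ρ a - 1 with hα
  set β := ρ b - 1 with hβ
  have hαv : ∀ v, ρ a v = v + α v := by
    intro v
    rw [hα, LinearMap.sub_apply, Module.End.one_apply, add_sub_cancel]
  have hβv : ∀ v, ρ b v = v + β v := by
    intro v
    rw [hβ, LinearMap.sub_apply, Module.End.one_apply, add_sub_cancel]
  have hααv : ∀ v, α (α v) = 0 := fun v => congrArg (fun g : Module.End (ZMod p) V => g v) ha
  have hββv : ∀ v, β (β v) = 0 := fun v => congrArg (fun g : Module.End (ZMod p) V => g v) hb
  have hirr' : ∀ U : Submodule (ZMod p) V, (∀ u ∈ U, α u ∈ U) → (∀ u ∈ U, β u ∈ U) →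
      U = ⊥ ∨ U = ⊤ := by
    intro U h1 h2
    apply hirr U
    · intro u hu
      rw [hαv]
      exact add_mem hu (h1 u hu)
    · intro u hu
      rw [hβv]
      exact add_mem hu (h2 u hu)
  set c := α * β + β * α with hc
  have hcα : Commute c α := by
    change c * α = α * c
    rw [hc, add_mul, mul_add, mul_assoc β, ha, mul_zero, add_zero, ← mul_assoc α α, ha, zero_mul,
      zero_add, mul_assoc]
  have hcβ : Commute c β := by
    change c * β = β * c
    rw [hc, add_mul, mul_add, mul_assoc α, hb, mul_zero, zero_add, ← mul_assoc β β, hb, zero_mul,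
      add_zero, mul_assoc]
  have hfα : ∀ f : (ZMod p)[X], Commute (aeval c f) α := by
    intro f
    induction f using Polynomial.induction_on' with
    | add f g h1 h2 => rw [map_add]; exact h1.add_left h2
    | monomial n r =>
      rw [aeval_monomial]
      exact (Algebra.commutes r α : _ = _) |> fun h => (show Commute _ α from h).mul_left
        (hcα.pow_left n)
  have hfβ : ∀ f : (ZMod p)[X], Commute (aeval c f) β := by
    intro f
    induction f using Polynomial.induction_on' with
    | add f g h1 h2 => rw [map_add]; exact h1.add_left h2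
    | monomial n r =>
      rw [aeval_monomial]
      exact (Algebra.commutes r β : _ = _) |> fun h => (show Commute _ β from h).mul_left
        (hcβ.pow_left n)
  have hinj : ∀ f : (ZMod p)[X], aeval c f = 0 ∨
      Function.Injective (aeval c f : Module.End (ZMod p) V) := by
    intro f
    rcases hirr' (LinearMap.ker (aeval c f)) (by
      intro u hu
      rw [LinearMap.mem_ker] at hu ⊢
      have := congrArg (fun g : Module.End (ZMod p) V => g u) (hfα f).eq
      change aeval c f (α u) = α (aeval c f u) at this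
      rw [this, hu, map_zero]) (by
      intro u hu
      rw [LinearMap.mem_ker] at hu ⊢
      have := congrArg (fun g : Module.End (ZMod p) V => g u) (hfβ f).eq
      change aeval c f (β u) = β (aeval c f u) at this
      rw [this, hu, map_zero]) with h | h
    · right
      exact LinearMap.ker_eq_bot.1 h
    · left
      exact LinearMap.ker_eq_top.1 h
  obtain ⟨q, hq, hqc⟩ := exists_irreducible_aeval c hinj
  have hqf : Fact (Irreducible q) := ⟨hq⟩
  -- the field
  let θ : AdjoinRoot q →+* Module.End (ZMod p) V :=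
    Ideal.Quotient.lift (Ideal.span {q}) (aeval c : (ZMod p)[X] →ₐ[ZMod p] _).toRingHom (by
      intro f hf
      rw [Ideal.mem_span_singleton] at hf
      obtain ⟨g, rfl⟩ := hf
      change aeval c (q * g) = 0
      rw [map_mul, hqc, zero_mul])
  have hθ : ∀ f : (ZMod p)[X], θ (AdjoinRoot.mk q f) = aeval c f := fun f => rfl
  have hθinj : Function.Injective θ := RingHom.injective θ
  have hfinE : Finite (Module.End (ZMod p) V) :=
    Finite.of_injective (fun f : Module.End (ZMod p) V => (f : V → V)) DFunLike.coe_injective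
  have hfinF : Finite (AdjoinRoot q) := Finite.of_injective θ hθinj
  have hchar : CharP (AdjoinRoot q) p :=
    charP_of_injective_ringHom (AdjoinRoot.of q).injective p
  let iM : Module (AdjoinRoot q) V := Module.compHom V θ
  have hsmul : ∀ (f : AdjoinRoot q) (v : V), f • v = θ f v := fun f v => rfl
  have hsα : ∀ (f : AdjoinRoot q) (v : V), α (f • v) = f • α v := by
    intro f v
    obtain ⟨f, rfl⟩ := AdjoinRoot.mk_surjective f
    rw [hsmul, hsmul, hθ]
    exact (congrArg (fun g : Module.End (ZMod p) V => g v) (hfα f).eq).symm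
  have hsβ : ∀ (f : AdjoinRoot q) (v : V), β (f • v) = f • β v := by
    intro f v
    obtain ⟨f, rfl⟩ := AdjoinRoot.mk_surjective f
    rw [hsmul, hsmul, hθ]
    exact (congrArg (fun g : Module.End (ZMod p) V => g v) (hfβ f).eq).symm
  set γ := AdjoinRoot.root q with hγ
  have hγv : ∀ v : V, γ • v = α (β v) + β (α v) := by
    intro v
    have h1 : θ γ = c := by
      rw [hγ, ← AdjoinRoot.mk_X, hθ, aeval_X]
    rw [hsmul, h1, hc]
    rfl
  -- `c ≠ 0`
  have hkerα : LinearMap.ker α ≠ ⊥ := by
    intro h
    have h1 := LinearMap.ker_eq_bot.1 h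
    obtain ⟨v, hv⟩ := exists_ne (0 : V)
    have h2 : α v ≠ 0 := fun h0 => hv (h1 (by rw [h0, map_zero]))
    exact h2 (h1 (by rw [hααv, map_zero]))
  have hkerβ : LinearMap.ker β ≠ ⊥ := by
    intro h
    have h1 := LinearMap.ker_eq_bot.1 h
    obtain ⟨v, hv⟩ := exists_ne (0 : V)
    have h2 : β v ≠ 0 := fun h0 => hv (h1 (by rw [h0, map_zero]))
    exact h2 (h1 (by rw [hββv, map_zero]))
  have hγ0 : γ ≠ 0 := by
    intro h0
    have h1 : ∀ v, α (β v) + β (α v) = 0 := by
      intro v
      rw [← hγv, h0, zero_smul]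
    have hα0 : α = 0 := by
      rcases hirr' (LinearMap.ker α) (by
        intro u hu
        rw [LinearMap.mem_ker] at hu ⊢
        rw [hu, map_zero]) (by
        intro u hu
        rw [LinearMap.mem_ker] at hu ⊢
        have := h1 u
        rwa [hu, map_zero, add_zero] at this) with h | h
      · exact absurd h hkerα
      · exact LinearMap.ker_eq_top.1 h
    have hβ0 : β = 0 := by
      rcases hirr' (LinearMap.ker β) (by
        intro u hu
        rw [LinearMap.mem_ker] at hu ⊢
        have := h1 u
        rwa [hu, map_zero, zero_add] at this) (by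
        intro u hu
        rw [LinearMap.mem_ker] at hu ⊢
        rw [hu, map_zero]) with h | h
      · exact absurd h hkerβ
      · exact LinearMap.ker_eq_top.1 h
    rcases hnt with h | h
    · exact h (sub_eq_zero.1 hα0)
    · exact h (sub_eq_zero.1 hβ0)
  -- basis
  obtain ⟨v, hv, hv0⟩ := (Submodule.ne_bot_iff _).1 hkerα
  rw [LinearMap.mem_ker] at hv
  set w₀ := β v with hw₀
  have hαw : α w₀ = γ • v := by
    rw [hγv, hv, map_zero, add_zero]
  have hβw : β w₀ = 0 := hββv v
  let e : (Fin 2 → AdjoinRoot q) → V := fun x => x 0 • v + x 1 • w₀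
  have he : ∀ x, e x = x 0 • v + x 1 • w₀ := fun x => rfl
  have hαe : ∀ x, α (e x) = (x 1 * γ) • v := by
    intro x
    rw [he, map_add, hsα, hsα, hv, smul_zero, zero_add, hαw, smul_smul]
  have hβe : ∀ x, β (e x) = x 0 • w₀ := by
    intro x
    rw [he, map_add, hsβ, hsβ, hβw, smul_zero, add_zero]
  have heinj : ∀ x, e x = 0 → x = 0 := by
    intro x hx
    have h1 := hαe x
    rw [hx, map_zero] at h1
    have h2 := (smul_eq_zero.1 h1.symm).resolve_right hv0
    have h3 := (mul_eq_zero.1 h2).resolve_right hγ0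
    rw [he, h3, zero_smul, add_zero] at hx
    have h4 := (smul_eq_zero.1 hx).resolve_right hv0
    ext i
    fin_cases i
    · exact h4
    · exact h3
  -- the correspondence
  have hR : ∀ M ∈ Subgroup.closure {slU γ, slL (1 : AdjoinRoot q)},
      ∃ g ∈ Subgroup.closure {a, b}, ∀ x, ρ g (e x) = e (M.1.mulVec x) := by
    intro M hM
    induction hM using Subgroup.closure_induction with
    | mem M hM =>
      rcases hM with rfl | hM
      · refine ⟨a, Subgroup.subset_closure (by simp), fun x => ?_⟩
        rw [hαv, hαe, mulVec_two, slU_val, he, he]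
        simp only [Matrix.of_apply, Matrix.cons_val', Matrix.cons_val_zero, Matrix.cons_val_one,
          Matrix.cons_val_fin_one, one_mul, zero_mul, zero_add]
        rw [add_smul, mul_comm γ]
        abel
      · rw [Set.mem_singleton_iff] at hM
        subst hM
        refine ⟨b, Subgroup.subset_closure (by simp), fun x => ?_⟩
        rw [hβv, hβe, mulVec_two, slL_val, he, he]
        simp only [Matrix.of_apply, Matrix.cons_val', Matrix.cons_val_zero, Matrix.cons_val_one,
          Matrix.cons_val_fin_one, one_mul, zero_mul, add_zero]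
        rw [add_smul]
        abel
    | one =>
      refine ⟨1, one_mem _, fun x => ?_⟩
      rw [map_one, slone, Matrix.one_mulVec]
      rfl
    | mul M N _ _ h1 h2 =>
      obtain ⟨g, hg, h1⟩ := h1
      obtain ⟨h, hh, h2⟩ := h2
      refine ⟨g * h, mul_mem hg hh, fun x => ?_⟩
      rw [map_mul, slmul, ← Matrix.mulVec_mulVec, ← h1, ← h2]
      rfl
    | inv M _ h1 =>
      obtain ⟨g, hg, h1⟩ := h1
      refine ⟨g⁻¹, inv_mem hg, fun x => ?_⟩
      have h2 := h1 ((M⁻¹).1.mulVec x)
      rw [Matrix.mulVec_mulVec, ← slmul, mul_inv_cancel, slone, Matrix.one_mulVec] at h2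
      rw [← h2, ← Module.End.mul_apply, ← map_mul, inv_mul_cancel, map_one]
      rfl
  have hadd : ∀ s t, e (s + t) = e s + e t := by
    intro s t
    rw [he, he, he, Pi.add_apply, Pi.add_apply, add_smul, add_smul]
    abel
  have hneg : ∀ s, e (-s) = - e s := by
    intro s
    rw [he, he, Pi.neg_apply, Pi.neg_apply, neg_smul, neg_smul]
    abel
  have hA : ∀ x, ρ a (e x) = e ((slU γ).1.mulVec x) := by
    intro x
    rw [hαv, hαe, mulVec_two, slU_val, he, he]
    simp only [Matrix.of_apply, Matrix.cons_val', Matrix.cons_val_zero, Matrix.cons_val_one,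
      Matrix.cons_val_fin_one, one_mul, zero_mul, zero_add]
    rw [add_smul, mul_comm γ]
    abel
  have hB : ∀ x, ρ b (e x) = e ((slL (1 : AdjoinRoot q)).1.mulVec x) := by
    intro x
    rw [hβv, hβe, mulVec_two, slL_val, he, he]
    simp only [Matrix.of_apply, Matrix.cons_val', Matrix.cons_val_zero, Matrix.cons_val_one,
      Matrix.cons_val_fin_one, one_mul, zero_mul, add_zero]
    rw [add_smul]
    abel
  let A : AddSubgroup V :=
    { carrier := Set.range e
      zero_mem' := ⟨0, by rw [he]; simp⟩
      add_mem' := by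
        rintro _ _ ⟨x, rfl⟩ ⟨y, rfl⟩
        exact ⟨x + y, hadd x y⟩
      neg_mem' := by
        rintro _ ⟨x, rfl⟩
        exact ⟨-x, hneg x⟩ }
  have hmemU : ∀ u, u ∈ AddSubgroup.toZModSubmodule p A ↔ u ∈ Set.range e := fun u => Iff.rfl
  have hsurj : Function.Surjective e := by
    rcases hirr' (AddSubgroup.toZModSubmodule p A) (by
      intro u hu
      rw [hmemU] at hu ⊢
      obtain ⟨x, rfl⟩ := hu
      refine ⟨![x 1 * γ, 0], ?_⟩
      rw [hαe, he]
      simp) (by
      intro u hu
      rw [hmemU] at hu ⊢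
      obtain ⟨x, rfl⟩ := hu
      refine ⟨![0, x 0], ?_⟩
      rw [hβe, he]
      simp) with h | h
    · exfalso
      apply hv0
      have h1 : v ∈ AddSubgroup.toZModSubmodule p A := by
        rw [hmemU]
        refine ⟨![1, 0], ?_⟩
        rw [he]
        simp
      rw [h] at h1
      exact h1
    · intro u
      have : u ∈ AddSubgroup.toZModSubmodule p A := by rw [h]; trivial
      exact this
  have hinje : Function.Injective e := by
    intro s t hst
    have h1 : e (s - t) = 0 := by
      rw [sub_eq_add_neg, hadd, hneg, hst]; abel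
    have := heinj _ h1
    exact sub_eq_zero.1 this
  exact ⟨AdjoinRoot q, inferInstance, hfinF, hchar, γ, e, hγ0, ⟨hinje, hsurj⟩, hadd, hA, hB, hR⟩


theorem neg_one_mem {F : Type*} [Field F] [Finite F] [CharP F p] (hp2 : p ≠ 2) (γ : F) (hγ : γ ≠ 0) :
    ∃ M ∈ Subgroup.closure {slU γ, slL (1 : F)}, ∀ x : Fin 2 → F, M.1.mulVec x = - x := by
  obtain ⟨X, hX, Y, hY, u, w, hu, hXu, hXw, hYw, hYu⟩ := exists_opposite_matrix (p := p) hp2 γ hγ
  have h1 : (X * Y).1 *ᵥ u = - u - w - w := by
    rw [slmul, ← mulVec_mulVec, hYu, mulVec_sub, mulVec_sub, hXu, hXw]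
    abel
  have h2 : (X * Y).1 *ᵥ w = u + w := by
    rw [slmul, ← mulVec_mulVec, hYw, hXw]
  have h3 : ((X * Y) * (X * Y)).1 *ᵥ u = - u := by
    rw [slmul, ← mulVec_mulVec, h1, mulVec_sub, mulVec_sub, mulVec_neg, h1, h2]
    abel
  have h4 : ((X * Y) * (X * Y)).1 *ᵥ w = - w := by
    rw [slmul, ← mulVec_mulVec, h2, mulVec_add, h1, h2]
    abel
  have hdet : u 0 * w 1 - w 0 * u 1 ≠ 0 := by
    intro hd
    -- `w` is a multiple of `u`
    have hw : ∃ c : F, w = c • u := by
      by_cases hu0 : u 0 = 0
      · have hu1 : u 1 ≠ 0 := by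
          intro h
          apply hu
          ext i
          fin_cases i
          · exact hu0
          · exact h
        refine ⟨w 1 / u 1, ?_⟩
        rw [hu0, zero_mul, zero_sub, neg_eq_zero] at hd
        have hw0 : w 0 = 0 := (mul_eq_zero.1 hd).resolve_right hu1
        ext i
        fin_cases i
        · simp [hw0, hu0]
        · simp; field_simp
      · refine ⟨w 0 / u 0, ?_⟩
        ext i
        fin_cases i
        · simp; field_simp
        · simp only [Fin.mk_one, Pi.smul_apply, smul_eq_mul]
          field_simp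
          linear_combination hd
    obtain ⟨c, hc⟩ := hw
    have h5 : X.1 *ᵥ w = w := by rw [hc, mulVec_smul, hXu]
    rw [hXw] at h5
    apply hu
    exact add_eq_right.1 h5
  refine ⟨(X * Y) * (X * Y), mul_mem (mul_mem hX hY) (mul_mem hX hY), ?_⟩
  have h5 : (- ((X * Y) * (X * Y)).1) = 1 := by
    refine Cfsg.Agent.H81.eq_one_of_fix_two hdet ?_ ?_
    · rw [neg_mulVec, h3, neg_neg]
    · rw [neg_mulVec, h4, neg_neg]
  intro x
  have h6 : ((X * Y) * (X * Y)).1 = -1 := by rw [← h5, neg_neg]
  rw [h6, neg_mulVec, one_mulVec]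

end

end Cfsg.Agent.QdInv
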