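import Cfsg.Agent.QdInv.QuadLoc
/-!
The local lemma for real elements.
-/
set_option autoImplicit false
set_option linter.all false

namespace Cfsg.Agent.QdInv

open Cfsg Cfsg.Agent.H33

universe u

theorem real_loc {X : Type u} [Group X] [Finite X] {p : ℕ} [hp : Fact p.Prime] (hp2 : p ≠ 2)
    {P : Subgroup X} (hP : IsPGroup p P) {a b : X}
    (hL : Subgroup.closure {a, b} ≤ Subgroup.normalizer (P : Set X)) (hqa : H11.Quad a P)
    (hqb : H11.Quad b P) (hap : ∃ k, a ^ p ^ k = 1)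
    (hg : ∃ g ∈ Subgroup.closure {a, b}, (orderOf g).Coprime p ∧ g ∉ Subgroup.centralizer (P : Set X)) :
    ∃ T' : Subgroup X, IsPGroup p T' ∧ a ∈ T' ∧ T' ≤ Subgroup.closure {a, b} ∧
      RealP p ↥(P ⊔ (Subgroup.closure {a, b} ⊓ Subgroup.normalizer (T' : Set X))) := by
  obtain ⟨g, hgL, hgo, hgc⟩ := hg
  obtain ⟨P₁, P₂, hlt, hP₂, hL1, hL2, hn, hpow, hcomm, hgx, hirr⟩ := exists_factor hP hL hgL hgo hgc
  obtain ⟨F, j1, j2, j3, γ, π, hγ, hmul, hsurj, hzero, hA, hB, hR⟩ := exists_struct hp2 hlt hL1 hL2 hn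
    hpow hcomm hgL hgx hirr (hqa.mono hP₂) (hqb.mono hP₂)
  obtain ⟨M, hM, hMneg⟩ := neg_one_mem (p := p) hp2 γ hγ
  obtain ⟨z, hz, hzπ⟩ := hR M hM
  have hz' : ∀ x ∈ P₂, π (z * x * z⁻¹) = - π x := fun x hx => by rw [hzπ x hx, hMneg]
  have hc : ∀ c ∈ Subgroup.closure ({a, b} : Set X), ∀ x ∈ P₂, c * x * c⁻¹ ∈ P₂ := fun c hc x hx =>
    (Subgroup.mem_normalizer_iff.1 (hL2 hc) x).1 hx
  have haL : a ∈ Subgroup.closure ({a, b} : Set X) := Subgroup.subset_closure (by simp)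
  have heq : ∀ x ∈ P₂, ∀ y ∈ P₂, x * y⁻¹ ∈ P₁ ↔ π x = π y := by
    intro x hx y hy
    rw [← hzero _ (mul_mem hx (inv_mem hy))]
    have h1 := hmul _ (mul_mem hx (inv_mem hy)) y hy
    rw [inv_mul_cancel_right] at h1
    rw [h1]
    constructor
    · intro h; rw [h, zero_add]
    · intro h; exact add_eq_right.1 h
  obtain ⟨T', hT', haT, hTL, z', hz'L, hz'T, hz'x⟩ := exists_norm_T (p := p) hz hL1 hL2 hap 1 (by
    intro x hx
    rw [pow_one, heq _ (hc _ (mul_mem (mul_mem hz haL) (inv_mem hz)) x hx) _ (hc a haL x hx)]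
    have h1 : z * a * z⁻¹ * x * (z * a * z⁻¹)⁻¹ = z * (a * (z⁻¹ * x * z⁻¹⁻¹) * a⁻¹) * z⁻¹ := by group
    have hx' := hc z⁻¹ (inv_mem hz) x hx
    have h2 := hz' _ hx'
    have e : z * (z⁻¹ * x * z⁻¹⁻¹) * z⁻¹ = x := by group
    rw [e] at h2
    rw [h1, hz' _ (hc a haL _ hx'), hA _ hx', hA _ hx, h2, Matrix.mulVec_neg])
  refine ⟨T', hT', haT, hTL, ?_⟩
  obtain ⟨w, hw, hw'⟩ := SetLike.exists_of_lt hlt
  have hIv : Iv P₁ P₂ z' := by
    intro x hx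
    have h1 := (heq _ (hc z' hz'L x hx) _ (hc z hz x hx)).1 (hz'x x hx)
    have h2 : z' * x * z'⁻¹ * x = (z' * x * z'⁻¹) * (x⁻¹)⁻¹ := by group
    rw [h2, heq _ (hc z' hz'L x hx) _ (inv_mem hx), h1, hz' x hx]
    have h3 := hmul x hx x⁻¹ (inv_mem hx)
    rw [mul_inv_cancel, (hzero 1 (one_mem _)).2 (one_mem _)] at h3
    exact (eq_neg_of_add_eq_zero_right h3.symm).symm
  obtain ⟨x, hx, y, hy, hx1, hyx⟩ := real_of_section hp2 (isPGroup_sub hP hP₂) hlt.le hn (hL1 hz'L)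
    (hL2 hz'L) hIv hw hw'
  obtain ⟨k, hk⟩ := hP ⟨x, hP₂ hx⟩
  have hk' : x ^ p ^ k = 1 := congrArg Subtype.val hk
  refine ⟨⟨x, Subgroup.mem_sup_left (hP₂ hx)⟩, ⟨y, Subgroup.mem_sup_right
    ((Subgroup.zpowers_le.2 (⟨hz'L, hz'T⟩ : z' ∈ Subgroup.closure {a, b} ⊓
      Subgroup.normalizer (T' : Set X))) hy)⟩, ⟨k, ?_⟩, ?_, ?_⟩
  · exact Subtype.ext hk'
  · intro h
    exact hx1 (congrArg Subtype.val h)
  · exact Subtype.ext hyx

end Cfsg.Agent.QdInv
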