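import Cfsg.Agent.H33.StrongFusion
import Cfsg.Agent.H33.SecControl
import Cfsg.Agent.H33.Sections
import Cfsg.Agent.H33.Frattini
import Cfsg.Prelude.Def_LocalEven
/-!
Triple factorizations: the normal closure of `Ω₁Z(S)` in `N(W₁(S))`.
-/
set_option autoImplicit false
set_option linter.all false

namespace Cfsg.Agent.QdInv

open Cfsg Cfsg.Agent.H33

universe u

/-- `Ω₁(Z(S))` -/
def oz (p : ℕ) {X : Type*} [Group X] (S : Subgroup X) : Subgroup X :=
  omegaOne p (S ⊓ Subgroup.centralizer (S : Set X))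

theorem oz_le {p : ℕ} {X : Type*} [Group X] (S : Subgroup X) :
    oz p S ≤ S ⊓ Subgroup.centralizer (S : Set X) := by
  rw [oz, omegaOne, Subgroup.closure_le]
  exact fun x hx => hx.1

theorem oz_map {p : ℕ} {X Y : Type*} [Group X] [Group Y] (f : X →* Y) (S : Subgroup X) :
    (oz p S).map f ≤ oz p (S.map f) := by
  rw [oz, omegaOne, MonoidHom.map_closure, Subgroup.closure_le]
  rintro _ ⟨x, ⟨⟨hx1, hx2⟩, hx3⟩, rfl⟩
  apply Subgroup.subset_closure
  refine ⟨⟨⟨x, hx1, rfl⟩, ?_⟩, by rw [← map_pow, hx3, map_one]⟩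
  apply Subgroup.mem_centralizer_iff.2
  rintro _ ⟨y, hy, rfl⟩
  rw [← map_mul, ← map_mul, Subgroup.mem_centralizer_iff.1 hx2 y hy]

/-- the local factorization statement -/
def ZFac (p : ℕ) (W : ∀ (Q : Type u) [Group Q], Subgroup Q) (Y : Type u) [Group Y] : Prop :=
  Subgroup.centralizer ((pCore p Y : Subgroup Y) : Set Y) ≤ pCore p Y → ∀ T : Sylow p Y, ∀ x : Y,
    ∃ a ∈ Subgroup.centralizer ((oz p (T : Subgroup Y) : Subgroup Y) : Set Y),
      ∃ b ∈ Subgroup.normalizer ((inducedFunctor W (T : Subgroup Y) : Subgroup Y) : Set Y), x = a * b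

theorem local_conj {p : ℕ} [Fact p.Prime] {X : Type u} [Group X] [Finite X] (S : Sylow p X)
    (M : Subgroup X) [hMn : M.Normal] (hM : M = pPrimeCore p X) (P V : Subgroup X) [hP : P.Normal]
    [hV : V.Normal] (hPS : P ≤ (S : Subgroup X))
    (hcP : (S : Subgroup X) ⊓ Subgroup.centralizer (P : Set X) ≤ P) (hVP : V ≤ P)
    (hZV : oz p (S : Subgroup X) ≤ V) {W : ∀ (Q : Type u) [Group Q], Subgroup Q}
    (hW : IsCharPFunctor.{u} p W) (hfac : ZFac p W (X ⧸ M)) (h : X) :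
    ∃ n ∈ Subgroup.normalizer ((inducedFunctor W (S : Subgroup X) : Subgroup X) : Set X),
      ∀ z ∈ oz p (S : Subgroup X), h * z * h⁻¹ = n * z * n⁻¹ := by
  have hMc : (Nat.card M).Coprime p := by rw [hM]; exact Cfsg.Agent.Solv.pPrimeCore_card_coprime p
  have hker := ker_coprime (N := M) hMc
  set f := QuotientGroup.mk' M with hf
  have hfs : Function.Surjective f := QuotientGroup.mk'_surjective M
  let T : Sylow p (X ⧸ M) := S.mapSurjective hfs
  have hT : (T : Subgroup (X ⧸ M)) = (S : Subgroup X).map f := Sylow.coe_mapSurjective hfs S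
  have hinj : ∀ x ∈ (S : Subgroup X), f x = 1 → x = 1 := by
    intro x hx hfx
    obtain ⟨k, hk⟩ := S.2 ⟨x, hx⟩
    exact hker x hfx ⟨k, congrArg Subtype.val hk⟩
  -- constrained
  have hcons : Subgroup.centralizer ((pCore p (X ⧸ M) : Subgroup (X ⧸ M)) : Set (X ⧸ M)) ≤
      pCore p (X ⧸ M) := by
    apply cent_pCore_le T
    · subst hM
      exact Cfsg.Agent.Solv.pPrimeCore_quotient_pPrimeCore p
    · have hPc : P.map f ≤ pCore p (X ⧸ M) :=
        Cfsg.Agent.Solv.le_pCore (hP.map f hfs) ((isPGroup_sub S.2 hPS).map f)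
      rw [hT]
      rintro _ ⟨⟨x, hx, rfl⟩, hxc⟩
      apply hPc
      refine ⟨x, hcP ⟨hx, ?_⟩, rfl⟩
      apply Subgroup.mem_centralizer_iff.2
      intro y hy
      have h1 := Subgroup.mem_centralizer_iff.1 hxc (f y) (hPc ⟨y, hy, rfl⟩)
      have h2 : f (y * x * y⁻¹ * x⁻¹) = 1 := by
        rw [map_mul, map_mul, map_mul, h1, map_inv, map_inv]; group
      have h3 := hinj _ (mul_mem (mul_mem (mul_mem (hPS hy) hx) (inv_mem (hPS hy))) (inv_mem hx)) h2
      have h4 : y * x * y⁻¹ * x⁻¹ * (x * y) = x * y := by rw [h3, one_mul]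
      rw [← h4]; group
  obtain ⟨a, ha, b, hb, hab⟩ := hfac hcons T (f h)⁻¹
  rw [hT, H2.inducedFunctor_map hW f (S : Subgroup X) S.2 hinj] at hb
  rw [hT] at ha
  -- lift `b⁻¹`
  have hZS : oz p (S : Subgroup X) ≤ (S : Subgroup X) := (oz_le _).trans inf_le_left
  have hWS : inducedFunctor W (S : Subgroup X) ≤ (S : Subgroup X) := H2.inducedFunctor_le _
  have hVS := hVP.trans hPS
  obtain ⟨n, hn, hnN, -⟩ := lift_pprime f S.2 hWS (cf_norm_le (induced_conj hW) S.2) hker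
    (hfs b⁻¹) (inv_mem hb) hZS (by
      refine le_trans (cj_mono (Subgroup.map_mono hZV)) ?_
      haveI := hV.map f hfs
      rw [cj_normal]
      exact Subgroup.map_mono hVS)
  refine ⟨n, hnN, fun z hz => ?_⟩
  have h1 : f (h * z * h⁻¹) = f (n * z * n⁻¹) := by
    have h2 : f h = b⁻¹ * a⁻¹ := by
      have := congrArg (·⁻¹) hab
      simpa using this
    have h3 : a⁻¹ * f z * a = f z := by
      have h4 := Subgroup.mem_centralizer_iff.1 ha (f z) (oz_map f _ ⟨z, hz, rfl⟩)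
      calc a⁻¹ * f z * a = a⁻¹ * (f z * a) := by group
        _ = f z := by rw [h4]; group
    rw [map_mul, map_mul, map_inv, map_mul, map_mul, map_inv, h2, hn]
    calc b⁻¹ * a⁻¹ * f z * (b⁻¹ * a⁻¹)⁻¹ = b⁻¹ * (a⁻¹ * f z * a) * b⁻¹⁻¹ := by group
      _ = _ := by rw [h3]
  have h2 : (h * z * h⁻¹) * (n * z * n⁻¹)⁻¹ = 1 := by
    apply hinj
    · exact mul_mem (hVS (hV.conj_mem _ (hZV hz) h)) (inv_mem (hVS (hV.conj_mem _ (hZV hz) n)))
    · rw [map_mul, map_inv, h1, mul_inv_cancel]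
  exact mul_inv_eq_one.1 h2

theorem oz_subgroupOf_map {p : ℕ} {G : Type*} [Group G] {S H : Subgroup G} (h : S ≤ H) :
    (oz p (S.subgroupOf H)).map H.subtype = oz p S := by
  rw [oz, oz, omegaOne, omegaOne, MonoidHom.map_closure]
  congr 1
  ext x
  constructor
  · rintro ⟨y, ⟨⟨hy1, hy2⟩, hy3⟩, rfl⟩
    refine ⟨⟨hy1, ?_⟩, by rw [← map_pow, hy3, map_one]⟩
    apply Subgroup.mem_centralizer_iff.2
    intro z hz
    exact congrArg Subtype.val (Subgroup.mem_centralizer_iff.1 hy2 ⟨z, h hz⟩ hz)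
  · rintro ⟨⟨hx1, hx2⟩, hx3⟩
    refine ⟨⟨x, h hx1⟩, ⟨⟨hx1, ?_⟩, Subtype.ext hx3⟩, rfl⟩
    apply Subgroup.mem_centralizer_iff.2
    rintro z hz
    exact Subtype.ext (Subgroup.mem_centralizer_iff.1 hx2 (z : G) hz)

theorem sub_conj {p : ℕ} [Fact p.Prime] {G : Type u} [Group G] [Finite G] (S : Sylow p G)
    (V : Subgroup G) (hVc : ∀ x ∈ V, ∀ y ∈ V, x * y = y * x) (hVS : V ≤ (S : Subgroup G))
    (N : Subgroup G) (hSN : (S : Subgroup G) ≤ N) (hN : N ≤ Subgroup.normalizer (V : Set G))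
    (hZV : oz p (S : Subgroup G) ≤ V) {W : ∀ (Q : Type u) [Group Q], Subgroup Q}
    (hW : IsCharPFunctor.{u} p W)
    (hfac : ∀ (K R : Subgroup G) [hR : (R.subgroupOf K).Normal], ZFac p W (↥K ⧸ R.subgroupOf K))
    {n : G} (hn : n ∈ N) :
    ∃ m ∈ N ⊓ Subgroup.normalizer ((inducedFunctor W (S : Subgroup G) : Subgroup G) : Set G),
      ∀ z ∈ oz p (S : Subgroup G), n * z * n⁻¹ = m * z * m⁻¹ := by
  have hSNs : IsSyl p (S : Subgroup G) N := (isSyl_top S).mono hSN le_top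
  obtain ⟨P, hP⟩ : ∃ P : Subgroup G, P = (S : Subgroup G) ⊓ Subgroup.centralizer (V : Set G) := ⟨_, rfl⟩
  obtain ⟨H, hH⟩ : ∃ H : Subgroup G, H = N ⊓ Subgroup.normalizer (P : Set G) := ⟨_, rfl⟩
  have hVP : V ≤ P := by
    intro x hx
    rw [hP]
    refine ⟨hVS hx, ?_⟩
    apply Subgroup.mem_centralizer_iff.2
    intro y hy
    exact hVc y hy x hx
  have hPS : P ≤ (S : Subgroup G) := by rw [hP]; exact inf_le_left
  have hNV : ∀ x ∈ N, x ∈ Subgroup.normalizer (Subgroup.centralizer (V : Set G) : Set G) :=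
    fun x hx => norm_le_norm_cent V (hN hx)
  have hSH : (S : Subgroup G) ≤ H := by
    intro s hs
    rw [hH]
    refine ⟨hSN hs, ?_⟩
    rw [hP]
    exact norm_inf (Subgroup.le_normalizer hs) (hNV s (hSN hs))
  have hCsyl : IsSyl p P (N ⊓ Subgroup.centralizer (V : Set G)) := by
    have h1 := hSNs.inf_normal (N := N ⊓ Subgroup.centralizer (V : Set G)) inf_le_left
      (fun x hx => norm_inf (Subgroup.le_normalizer hx) (hNV x hx))
    have h2 : (S : Subgroup G) ⊓ (N ⊓ Subgroup.centralizer (V : Set G)) = P := by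
      rw [hP, ← inf_assoc, inf_eq_left.2 hSN]
    rwa [h2] at h1
  obtain ⟨c, hc, hcn⟩ := hCsyl.frattini (y := n)
    (norm_inf (Subgroup.le_normalizer hn) (hNV n hn))
  have hcnH : c * n ∈ H := by rw [hH]; exact ⟨mul_mem hc.1 hn, hcn⟩
  have hHN : H ≤ N := by rw [hH]; exact inf_le_left
  have hHP : H ≤ Subgroup.normalizer (P : Set G) := by rw [hH]; exact inf_le_right
  -- the Sylow subgroup of `H`
  have hSHs : IsSyl p (S : Subgroup G) H := (isSyl_top S).mono hSH le_top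
  obtain ⟨S', hS'⟩ : ∃ S' : Sylow p ↥H, (S' : Subgroup ↥H) = (S : Subgroup G).subgroupOf H :=
    ⟨hSHs.toSylow, rfl⟩
  have hS'map : (S' : Subgroup ↥H).map H.subtype = (S : Subgroup G) := by
    rw [hS', Subgroup.subgroupOf_map_subtype, inf_eq_left]; exact hSH
  have hozmap : (oz p (S' : Subgroup ↥H)).map H.subtype = oz p (S : Subgroup G) := by
    rw [hS']; exact oz_subgroupOf_map hSH
  haveI hPn : (P.subgroupOf H).Normal := by
    rw [← Subgroup.normalizer_eq_top_iff, eq_top_iff]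
    intro x _
    have h1 := hHP x.2
    apply Subgroup.mem_normalizer_iff.2
    intro y
    exact Subgroup.mem_normalizer_iff.1 h1 (y : G)
  haveI hVn : (V.subgroupOf H).Normal := by
    rw [← Subgroup.normalizer_eq_top_iff, eq_top_iff]
    intro x _
    have h1 := hN (hHN x.2)
    apply Subgroup.mem_normalizer_iff.2
    intro y
    exact Subgroup.mem_normalizer_iff.1 h1 (y : G)
  obtain ⟨R, hR⟩ : ∃ R : Subgroup G, R = (pPrimeCore p ↥H).map H.subtype := ⟨_, rfl⟩
  have hRH : R.subgroupOf H = pPrimeCore p ↥H := by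
    rw [hR]
    exact Subgroup.comap_map_eq_self_of_injective H.subtype_injective _
  haveI hRn : (R.subgroupOf H).Normal := by rw [hRH]; infer_instance
  obtain ⟨m, hm, hmz⟩ := local_conj S' (R.subgroupOf H) hRH (P.subgroupOf H) (V.subgroupOf H)
    (by rw [hS']; exact Subgroup.comap_mono hPS) (by
      rintro x ⟨hx1, hx2⟩
      rw [hS'] at hx1
      show (x : G) ∈ P
      rw [hP]
      refine ⟨hx1, ?_⟩
      apply Subgroup.mem_centralizer_iff.2
      intro v hv
      have hvH : v ∈ H := hSH (hVS hv)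
      exact congrArg Subtype.val (Subgroup.mem_centralizer_iff.1 hx2 ⟨v, hvH⟩ (hVP hv)))
    (Subgroup.comap_mono hVP) (by
      intro x hx
      show (x : G) ∈ V
      apply hZV
      rw [← hozmap]
      exact ⟨x, hx, rfl⟩) hW (hfac H R) ⟨c * n, hcnH⟩
  refine ⟨m, ⟨hHN m.2, ?_⟩, fun z hz => ?_⟩
  · have h1 := H2.inducedFunctor_map hW H.subtype (S' : Subgroup ↥H) S'.2
      (fun x _ hx => Subtype.ext hx)
    rw [hS'map] at h1
    rw [h1]
    apply mem_norm_iff.2
    have h2 := mem_norm_iff.1 hm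
    have h3 := map_cj H.subtype m (inducedFunctor W (S' : Subgroup ↥H))
    rw [h2] at h3
    exact h3.symm
  · have hz' := hz
    rw [← hozmap] at hz'
    obtain ⟨z', hz', rfl⟩ := hz'
    have h1 : c * n * (z' : G) * (c * n)⁻¹ = m * z' * (m : G)⁻¹ :=
      congrArg Subtype.val (hmz z' hz')
    have h2 : n * (z' : G) * n⁻¹ ∈ V := (Subgroup.mem_normalizer_iff.1 (hN hn) _).1 (hZV hz)
    have h3 := Subgroup.mem_centralizer_iff.1 hc.2 _ h2
    show n * (z' : G) * n⁻¹ = m * (z' : G) * (m : G)⁻¹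
    rw [← h1]
    calc n * (z' : G) * n⁻¹ = (n * (z' : G) * n⁻¹) * c * c⁻¹ := by group
      _ = c * (n * (z' : G) * n⁻¹) * c⁻¹ := by rw [h3]
      _ = _ := by group

theorem SFc_norm {G : Type*} [Group G] {𝒩 : Set (Subgroup G)} {S A : Subgroup G} {g : G}
    (h : SFc 𝒩 S A g) (U : Subgroup G) (hU : ∀ N ∈ 𝒩, N ≤ Subgroup.normalizer (U : Set G)) :
    ∃ n ∈ Subgroup.normalizer (U : Set G), ∀ a ∈ A, g * a * g⁻¹ = n * a * n⁻¹ := by
  induction h with
  | base A g hA h => exact ⟨1, one_mem _, fun a ha => by rw [h a ha]; group⟩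
  | step A N x g hN hx hA h ih =>
    obtain ⟨n, hn, h1⟩ := ih
    refine ⟨n * x, mul_mem hn (hU N hN hx), fun a ha => ?_⟩
    have h2 := h1 _ (conj_mem_cj (g := x) ha)
    calc g * x * a * (g * x)⁻¹ = g * (x * a * x⁻¹) * g⁻¹ := by group
      _ = n * (x * a * x⁻¹) * n⁻¹ := h2
      _ = _ := by group

theorem triple {p : ℕ} [Fact p.Prime] {G : Type u} [Group G] [Finite G] (S : Sylow p G)
    {W₁ W₂ : ∀ (Q : Type u) [Group Q], Subgroup Q}
    (hW₁ : IsCharPFunctor.{u} p W₁) (hW₂ : IsCharPFunctor.{u} p W₂)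
    (hfac₁ : ∀ (K R : Subgroup G) [hR : (R.subgroupOf K).Normal], ZFac p W₁ (↥K ⧸ R.subgroupOf K))
    (hfac₂ : ∀ (K R : Subgroup G) [hR : (R.subgroupOf K).Normal], ZFac p W₂ (↥K ⧸ R.subgroupOf K))
    (hsf : FamilyControlsStrongFusionIn p {inducedFunctor (G := G) W₁, inducedFunctor (G := G) W₂} ⊤)
    (hZ : oz p (S : Subgroup G) ≤ inducedFunctor (G := G) W₁ (S : Subgroup G) ⊓
      inducedFunctor (G := G) W₂ (S : Subgroup G)) (N₁ : Subgroup G)
    (hN₁ : N₁ = Subgroup.normalizer ((inducedFunctor (G := G) W₁ (S : Subgroup G) : Subgroup G) : Set G))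
    (A : Subgroup G)
    (hA : A = (Subgroup.normalClosure (((oz p (S : Subgroup G)).subgroupOf N₁ : Subgroup ↥N₁) :
      Set ↥N₁)).map N₁.subtype) :
    A ≤ (S : Subgroup G) ∧ IsElementaryAbelian p A ∧ IsStronglyClosed A (S : Subgroup G) ∧
      ControlsStrongFusion p A := by
  obtain ⟨Z, hZdef⟩ : ∃ Z : Subgroup G, Z = oz p (S : Subgroup G) := ⟨_, rfl⟩
  rw [← hZdef] at hZ hA
  -- the two normalizers
  have key : ∀ (W W' : ∀ (Q : Type u) [Group Q], Subgroup Q), IsCharPFunctor.{u} p W →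
      IsCharPFunctor.{u} p W' →
      (∀ (K R : Subgroup G) [hR : (R.subgroupOf K).Normal], ZFac p W' (↥K ⧸ R.subgroupOf K)) →
      Z ≤ inducedFunctor (G := G) W (S : Subgroup G) →
      ∀ n ∈ Subgroup.normalizer ((inducedFunctor (G := G) W (S : Subgroup G) : Subgroup G) : Set G),
      ∃ m ∈ Subgroup.normalizer ((inducedFunctor (G := G) W (S : Subgroup G) : Subgroup G) : Set G) ⊓
        Subgroup.normalizer ((inducedFunctor (G := G) W' (S : Subgroup G) : Subgroup G) : Set G),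
        ∀ z ∈ Z, n * z * n⁻¹ = m * z * m⁻¹ := by
    intro W W' hW hW' hfac hZW n hn
    have hWS : inducedFunctor (G := G) W (S : Subgroup G) ≤ (S : Subgroup G) := H2.inducedFunctor_le _
    have h1 := sub_conj S (inducedFunctor (G := G) W (S : Subgroup G) ⊓
      Subgroup.centralizer ((inducedFunctor (G := G) W (S : Subgroup G) : Subgroup G) : Set G))
      (by
        rintro x ⟨_, hx⟩ y ⟨hy, _⟩
        exact (Subgroup.mem_centralizer_iff.1 hx y hy).symm)
      (inf_le_left.trans hWS)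
      (Subgroup.normalizer ((inducedFunctor (G := G) W (S : Subgroup G) : Subgroup G) : Set G))
      (cf_norm_le (induced_conj hW) S.2)
      (fun x hx => norm_inf hx (norm_le_norm_cent _ hx)) (by
        rw [← hZdef]
        refine le_inf hZW ?_
        intro z hz
        rw [hZdef] at hz
        apply Subgroup.mem_centralizer_iff.2
        intro y hy
        exact Subgroup.mem_centralizer_iff.1 (oz_le _ hz).2 y (hWS hy)) hW' hfac hn
    rw [← hZdef] at h1
    exact h1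
  obtain ⟨N₂, hN₂⟩ : ∃ N₂ : Subgroup G, N₂ =
    Subgroup.normalizer ((inducedFunctor (G := G) W₂ (S : Subgroup G) : Subgroup G) : Set G) := ⟨_, rfl⟩
  have k1 : ∀ n ∈ N₁, ∃ m ∈ N₁ ⊓ N₂, ∀ z ∈ Z, n * z * n⁻¹ = m * z * m⁻¹ := by
    rw [hN₁, hN₂]
    exact key W₁ W₂ hW₁ hW₂ hfac₂ (hZ.trans inf_le_left)
  have k2 : ∀ n ∈ N₂, ∃ m ∈ N₁ ⊓ N₂, ∀ z ∈ Z, n * z * n⁻¹ = m * z * m⁻¹ := by
    rw [hN₁, hN₂, inf_comm]
    exact key W₂ W₁ hW₂ hW₁ hfac₁ (hZ.trans inf_le_right)
  obtain ⟨A', hA'⟩ : ∃ A' : Subgroup G, A' =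
    Subgroup.closure {x | ∃ m ∈ N₁ ⊓ N₂, ∃ z ∈ Z, x = m * z * m⁻¹} := ⟨_, rfl⟩
  have kn : ∀ N : Subgroup G, N₁ ⊓ N₂ ≤ N →
      (∀ n ∈ N, ∃ m ∈ N₁ ⊓ N₂, ∀ z ∈ Z, n * z * n⁻¹ = m * z * m⁻¹) →
      N ≤ Subgroup.normalizer (A' : Set G) := by
    intro N hle hk n hn
    apply mem_norm_of_le
    rw [cj_le_iff]
    intro x hx
    rw [hA'] at hx
    induction hx using Subgroup.closure_induction with
    | mem x hx =>
      obtain ⟨m, hm, z, hz, rfl⟩ := hx
      obtain ⟨m', hm', h1⟩ := hk (n * m) (mul_mem hn (hle hm))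
      rw [hA']
      apply Subgroup.subset_closure
      refine ⟨m', hm', z, hz, ?_⟩
      rw [← h1 z hz]; group
    | one => simp [A'.one_mem]
    | mul x y _ _ hx hy =>
      have := A'.mul_mem hx hy
      have e : n * x * n⁻¹ * (n * y * n⁻¹) = n * (x * y) * n⁻¹ := by group
      rwa [e] at this
    | inv x _ hx =>
      have := A'.inv_mem hx
      have e : (n * x * n⁻¹)⁻¹ = n * x⁻¹ * n⁻¹ := by group
      rwa [e] at this
  have n1 := kn N₁ inf_le_left k1
  have n2 := kn N₂ inf_le_right k2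
  have hSN₁ : (S : Subgroup G) ≤ N₁ := by
    rw [hN₁]; exact cf_norm_le (induced_conj hW₁) S.2
  have hWS : inducedFunctor (G := G) W₁ (S : Subgroup G) ≤ (S : Subgroup G) := H2.inducedFunctor_le _
  have hZN : Z ≤ N₁ := (hZ.trans inf_le_left).trans (hWS.trans hSN₁)
  have hAA : A = A' := by
    rw [hA]
    apply le_antisymm
    · rw [Subgroup.map_le_iff_le_comap]
      have hn : (A'.comap N₁.subtype).Normal := by
        rw [← Subgroup.normalizer_eq_top_iff, eq_top_iff]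
        intro x _
        have h1 := n1 x.2
        apply Subgroup.mem_normalizer_iff.2
        intro y
        exact Subgroup.mem_normalizer_iff.1 h1 (y : G)
      refine Subgroup.normalClosure_le_normal ?_
      intro z hz
      show (z : G) ∈ A'
      rw [hA']
      apply Subgroup.subset_closure
      exact ⟨1, one_mem _, z, hz, by group⟩
    · rw [hA', Subgroup.closure_le]
      rintro _ ⟨m, hm, z, hz, rfl⟩
      refine ⟨⟨m, hm.1⟩ * ⟨z, hZN hz⟩ * ⟨m, hm.1⟩⁻¹, ?_, rfl⟩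
      have hnn : (Subgroup.normalClosure ((Z.subgroupOf N₁ : Subgroup ↥N₁) : Set ↥N₁)).Normal :=
        Subgroup.normalClosure_normal
      exact hnn.conj_mem _ (Subgroup.subset_normalClosure hz) _
  rw [hAA]
  -- `A'` is elementary abelian
  obtain ⟨V, hV⟩ : ∃ V : Subgroup G, V = inducedFunctor (G := G) W₁ (S : Subgroup G) ⊓
      Subgroup.centralizer ((inducedFunctor (G := G) W₁ (S : Subgroup G) : Subgroup G) : Set G) :=
    ⟨_, rfl⟩
  have hVc : ∀ x ∈ V, ∀ y ∈ V, x * y = y * x := by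
    rw [hV]
    rintro x ⟨_, hx⟩ y ⟨hy, _⟩
    exact (Subgroup.mem_centralizer_iff.1 hx y hy).symm
  have hNV : N₁ ≤ Subgroup.normalizer (V : Set G) := by
    rw [hN₁, hV]
    exact fun x hx => norm_inf hx (norm_le_norm_cent _ hx)
  have hZV : Z ≤ V := by
    rw [hV]
    refine le_inf (hZ.trans inf_le_left) ?_
    intro z hz
    rw [hZdef] at hz
    apply Subgroup.mem_centralizer_iff.2
    intro y hy
    exact Subgroup.mem_centralizer_iff.1 (oz_le _ hz).2 y (hWS hy)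
  let E : Subgroup G :=
    { carrier := {x | x ∈ V ∧ x ^ p = 1}
      one_mem' := ⟨one_mem _, one_pow _⟩
      mul_mem' := by
        rintro x y ⟨hx1, hx2⟩ ⟨hy1, hy2⟩
        refine ⟨mul_mem hx1 hy1, ?_⟩
        have : Commute x y := hVc x hx1 y hy1
        rw [this.mul_pow, hx2, hy2, one_mul]
      inv_mem' := by
        rintro x ⟨hx1, hx2⟩
        exact ⟨inv_mem hx1, by rw [inv_pow, hx2, inv_one]⟩ }
  have hZE : Z ≤ E := by
    rw [hZdef, oz, omegaOne, Subgroup.closure_le]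
    intro x hx
    refine ⟨hZV ?_, hx.2⟩
    rw [hZdef]
    exact Subgroup.subset_closure hx
  have hAE : A' ≤ E := by
    rw [hA', Subgroup.closure_le]
    rintro _ ⟨m, hm, z, hz, rfl⟩
    have hzE := hZE hz
    refine ⟨(Subgroup.mem_normalizer_iff.1 (hNV hm.1) _).1 hzE.1, ?_⟩
    have h1 : (MulAut.conj m z) ^ p = 1 := by rw [← map_pow, hzE.2, map_one]
    exact h1
  have hAS : A' ≤ (S : Subgroup G) := by
    refine hAE.trans (fun x hx => hWS ?_)
    have h1 := hx.1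
    rw [hV] at h1
    exact h1.1
  have hctl : ∀ X ≤ (S : Subgroup G), ∀ g : G, cj g X ≤ (S : Subgroup G) →
      ∃ n ∈ Subgroup.normalizer (A' : Set G), ∀ a ∈ X, g * a * g⁻¹ = n * a * n⁻¹ := by
    have hconj : ∀ W ∈ ({inducedFunctor (G := G) W₁, inducedFunctor (G := G) W₂} :
        Set (Subgroup G → Subgroup G)), IsConjugacyFunctor p W := by
      rintro W (rfl | rfl)
      · exact induced_conj hW₁
      · exact induced_conj hW₂
    have h1 := SFcontrol.of_family hconj hsf (isSyl_top S)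
    intro X hX g hg
    refine SFc_norm (h1 X hX g (Subgroup.mem_top _) hg) A' ?_
    rintro _ ⟨W, (rfl | rfl), rfl⟩
    · rw [← hN₁]; exact inf_le_right.trans n1
    · rw [← hN₂]; exact inf_le_right.trans n2
  refine ⟨hAS, ⟨?_, fun a ha => (hAE ha).2⟩, ⟨hAS, ?_⟩, S, hAS, ?_⟩
  · refine ⟨⟨?_⟩⟩
    rintro ⟨x, hx⟩ ⟨y, hy⟩
    exact Subtype.ext (hVc x (hAE hx).1 y (hAE hy).1)
  · intro x hx g hg
    obtain ⟨n, hn, h1⟩ := hctl (Subgroup.zpowers x) ((Subgroup.zpowers_le).2 (hAS hx)) g (by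
      rw [cj_le_iff]
      rintro _ ⟨k, rfl⟩
      have e : g * x ^ k * g⁻¹ = (g * x * g⁻¹) ^ k := by
        have := map_zpow (MulAut.conj g) x k
        simpa using this
      show g * x ^ k * g⁻¹ ∈ _
      rw [e]
      exact zpow_mem hg k)
    rw [h1 x (Subgroup.mem_zpowers x)]
    exact (Subgroup.mem_normalizer_iff.1 hn x).1 hx
  · intro X hX
    refine ⟨hX, fun g hg => ?_⟩
    obtain ⟨n, hn, h1⟩ := hctl (Subgroup.closure X) ((Subgroup.closure_le _).2 hX) g (by
      rw [cj_closure]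
      exact (Subgroup.closure_le _).2 hg)
    exact ⟨n, hn, fun a ha => h1 a (Subgroup.subset_closure ha)⟩

end Cfsg.Agent.QdInv
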